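import Cfsg.Agent.H41.S6Kit2

/-! Project SP6, piece ZQ. -/

set_option autoImplicit false
set_option linter.unusedSectionVars false

namespace Cfsg.Agent.H76.S6ZQ

open Cfsg Subgroup
open Cfsg.Agent.H44 Cfsg.Agent.H55.Sp6 Cfsg.Agent.H2.L3E Cfsg.Agent.H41.S6

universe u

/-- `a` is `σ(c)` modulo `b` -/
def Sg (c : ℕ) (a : Sp) : Prop := c < 64 ∧ bf 1 c = 0 ∧ (a = sg 1 c ∨ a = sg 1 c * g 1)

theorem bb : g 1 * g 1 = 1 := V0_sq g1_mem_V0
theorem sg0 : sg 1 0 = 1 := show ev g _ = ev g [] from weq (by decide +kernel)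
theorem b1 : g 1 ≠ 1 := show g 1 ≠ ev g [] from g_eq 1 ▸ wne (by decide +kernel)
theorem bpow (n : ℕ) : g 1 ^ n = 1 ∨ g 1 ^ n = g 1 := by
  induction n with
  | zero => exact Or.inl (pow_zero _)
  | succ n ih => rcases ih with e | e <;> rw [pow_succ, e]; exacts [Or.inr (one_mul _), Or.inl bb]

theorem Sg.mem {c : ℕ} {a : Sp} (h : Sg c a) : a ∈ V0 := by
  rcases h with ⟨h1, h2, rfl | rfl⟩
  exacts [sg_mem_V0 h1 h2, mul_mem (sg_mem_V0 h1 h2) g1_mem_V0]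

theorem Sg.self {c : ℕ} (h1 : c < 64) (h2 : bf 1 c = 0) : Sg c (sg 1 c) := ⟨h1, h2, Or.inl rfl⟩

theorem Sg.mulb {c : ℕ} {a : Sp} (h : Sg c a) (n : ℕ) : Sg c (a * g 1 ^ n) := by
  rcases bpow n with e | e <;> rw [e]
  · rwa [mul_one]
  · rcases h with ⟨h1, h2, rfl | rfl⟩
    exacts [⟨h1, h2, Or.inr rfl⟩, ⟨h1, h2, Or.inl (by rw [mul_assoc, bb, mul_one])⟩]

theorem Sg.pow {c : ℕ} {a : Sp} (h : Sg c a) : ∃ n, a = sg 1 c * g 1 ^ n := by
  rcases h with ⟨-, -, rfl | rfl⟩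
  exacts [⟨0, by simp⟩, ⟨1, by simp⟩]

theorem Sg.mul {c d : ℕ} {a a' : Sp} (h : Sg c a) (h' : Sg d a') : Sg (c ^^^ d) (a * a') := by
  obtain ⟨n, rfl⟩ := h.pow
  obtain ⟨m, rfl⟩ := h'.pow
  have k : ∀ c < 64, ∀ d < 64, bf 1 c = 0 → bf 1 d = 0 → bf 1 (c ^^^ d) = 0 := by decide +kernel
  have e : Commute (g 1) (sg 1 d) := V0_comm g1_mem_V0 (sg_mem_V0 h'.1 h'.2.1)
  have := (Sg.self (xor_lt h.1 h'.1) (k c h.1 d h'.1 h.2.1 h'.2.1)).mulb (bf c d + (n + m))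
  rw [pow_add, ← mul_assoc, ← sg_mul h.1 h'.1 h.2.1 h'.2.1] at this
  convert this using 1
  rw [mul_assoc, ← mul_assoc (g 1 ^ n), (e.pow_left n).eq, pow_add]; simp only [mul_assoc]

theorem Sg.uniq {c d : ℕ} {a : Sp} (h : Sg c a) (h' : Sg d a) : c / 2 = d / 2 := by
  have k := sg_inj h.1 h'.1 h.2.1 h'.2.1
  have k' := sg_inj h'.1 h.1 h'.2.1 h.2.1
  rcases h.2.2 with e | e <;> rcases h'.2.2 with e' | e' <;> rw [e] at e'
  exacts [k.1.1 e', absurd e' k.2, absurd e'.symm k'.2, k.1.1 (mul_right_cancel e')]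

theorem Sg.congr {c d : ℕ} {a : Sp} (h : Sg c a) (h1 : d < 64) (h2 : bf 1 d = 0) (e : c / 2 = d / 2) :
    Sg d a := ⟨h1, h2, (sg_inj h.1 h1 h.2.1 h2).1.2 e ▸ h.2.2⟩

theorem Sg.conj {c : ℕ} {a l : Sp} (h : Sg c a) (hl : l ∈ P1) : Sg (act l c) (l * a * l⁻¹) := by
  obtain ⟨n, rfl⟩ := h.pow
  have k := P1_conj_sg hl h.1 h.2.1
  have := (Sg.self (act_lt l c) k.2).mulb n
  rw [← k.1] at this
  convert this using 1
  rw [mul_assoc _ l⁻¹, ((show Commute l (g 1) from P1_comm hl).inv_left.pow_right n).eq]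
  simp only [mul_assoc]

theorem Sg.zero {a : Sp} (h : Sg 0 a) : a = 1 ∨ a = g 1 := by simpa [sg0] using h.2.2

theorem sg_one : Sg 0 1 := sg0 ▸ Sg.self (by decide) (by decide)

theorem exists_sg {a : Sp} (h : a ∈ V0) : ∃ c, Sg c a :=
  (V0_par h).imp fun _ h => ⟨h.1, h.2.1, h.2.2⟩

variable {G : Type u} [Group G] {ι : Sp →* G} {t : G}

theorem pp_cj {q : G} {v c : ℕ} {a : Sp} (hq : PP ι t q v) (h : Sg c a) :
    q * ι a * q⁻¹ = ι (a * g 1 ^ bf v c) := by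
  obtain ⟨n, rfl⟩ := h.pow
  have e : q * ι (g 1 ^ n) * q⁻¹ = ι (g 1 ^ n) := by
    rw [map_pow, ((show Commute q (ι (g 1)) from hq.b).pow_right n).eq, mul_inv_cancel_right]
  calc _ = q * ι (sg 1 c) * q⁻¹ * (q * ι (g 1 ^ n) * q⁻¹) := by rw [map_mul]; group
    _ = _ := by rw [hq.sv c h.1 h.2.1, e, ← map_mul, mul_assoc, mul_assoc, pow_mul_comm]

theorem pp_P1 (h : Hy ι t) {q : G} {v : ℕ} {l : Sp} (hq : PP ι t q v) (hv : v < 64) (hb : bf 1 v = 0)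
    (hl : l ∈ P1) : PP ι t (ι l * q * (ι l)⁻¹) (act l v) := by
  have c1 : ι l * ι (g 1) * (ι l)⁻¹ = ι (g 1) := by
    rw [← map_mul, P1_comm hl, map_mul, mul_inv_cancel_right]
  refine ⟨?_, fun w hw bw => ?_, ?_, ?_, fun hz => ?_⟩
  · rw [← (P1_conj_sg hl hv hb).1, ← h.conj_tl, ← hq.tr]
    conv_lhs => rw [← h.conj_t l]
    group
  · obtain ⟨k1, k2⟩ := P1_conj_sg (inv_mem hl) hw bw
    have e : ι (sg 1 w) = ι l * ι (sg 1 (act l⁻¹ w)) * (ι l)⁻¹ := by rw [← k1]; simp [mul_assoc]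
    have k3 := hq.sv _ (act_lt _ _) k2
    rw [← bf_act l hv (act_lt _ _), act_act_inv l hw] at k3
    calc _ = ι l * (q * ι (sg 1 (act l⁻¹ w)) * q⁻¹) * (ι l)⁻¹ := by rw [e]; group
      _ = _ := by
        rw [k3, map_mul, map_mul, map_pow, e]
        conv_rhs => rw [← c1, conj_pow]
        group
  · conv_lhs => rw [← c1]
    conv_rhs => rw [← c1]
    calc _ = ι l * (q * ι (g 1)) * (ι l)⁻¹ := by group
      _ = _ := by rw [hq.b]; group
  · have e : ι l * q * (ι l)⁻¹ * (ι l * q * (ι l)⁻¹) = ι l * (q * q) * (ι l)⁻¹ := by group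
    rcases hq.sq with k | k <;> rw [e, k]
    exacts [Or.inl (by group), Or.inr c1]
  · have : v < 2 := by
      have k : act l v = 0 ∨ act l v = 1 := by omega
      rcases k with k | k
      · rw [act_inj l hv (by decide) (k.trans (act_zero l).symm)]; decide
      · rw [act_inj l hv (by decide) (k.trans (mem_P1.1 hl).symm)]; decide
    obtain ⟨a, ha, rfl⟩ := hq.z this
    exact ⟨_, conj_mem_V0 (mem_P1.1 hl) ha, by simp⟩

theorem pp_uniq (P : PQc ι t) {q q' : G} {v : ℕ} (hq : PP ι t q v) (hq' : PP ι t q' v) (hv : v < 64)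
    (hb : bf 1 v = 0) : ∃ a ∈ V0, q' = ι a * q := by
  obtain ⟨a, ha, e⟩ := (P.mul v hv v hv hb hb _ _ hq' hq).z (by simp)
  rcases hq.sq with k | k
  · exact ⟨a, ha, by rw [e, mul_assoc, k, mul_one]⟩
  · exact ⟨a * g 1, mul_mem ha g1_mem_V0, by
      rw [map_mul, e, mul_assoc, ← hq.b, mul_assoc, ← mul_assoc q, k, ← map_mul, bb, map_one, mul_one]⟩

/-- centralises `V₀` and has translation `b` -/
def Xc (ι : Sp →* G) (t y : G) : Prop :=
  y * t * y⁻¹ = t * ι (g 1) ∧ ∀ v ∈ V0, y * ι v = ι v * y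

theorem Xc.cj {y : G} (hy : Xc ι t y) {a : Sp} (ha : a ∈ V0) : y * ι a * y⁻¹ = ι a := by
  rw [hy.2 a ha, mul_inv_cancel_right]

theorem Xc.P1 (h : Hy ι t) {y : G} (hy : Xc ι t y) {l : Sp} (hl : l ∈ P1) :
    Xc ι t (ι l * y * (ι l)⁻¹) := by
  refine ⟨?_, fun v hv => ?_⟩
  · have := h.conj_tl l (g 1)
    rw [P1_comm hl, mul_inv_cancel_right] at this
    rw [← this, ← hy.1]
    conv_lhs => rw [← h.conj_t l]
    group
  · have := hy.2 _ (conj_mem_V0 (mem_P1.1 (inv_mem hl)) hv)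
    simp only [map_mul, map_inv] at this
    calc _ = ι l * (y * ((ι l)⁻¹ * ι v * (ι l)⁻¹⁻¹)) * (ι l)⁻¹ := by group
      _ = _ := by rw [this]; group

theorem Xc.pp (h : Hy ι t) {y q : G} {v : ℕ} (hy : Xc ι t y) (hq : PP ι t q v) (hv : v < 64)
    (hb : bf 1 v = 0) : PP ι t (y * q * y⁻¹) v := by
  have i : ∀ a ∈ V0, y⁻¹ * ι a * y = ι a := fun a ha => by rw [mul_assoc, ← hy.2 a ha]; group
  have c1 := hy.cj g1_mem_V0
  refine ⟨?_, fun w hw bw => ?_, ?_, ?_, fun hz => ?_⟩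
  · have e : y⁻¹ * t * y = t * ι (g 1) := by
      calc y⁻¹ * t * y = y⁻¹ * (y * t * y⁻¹ * (y * ι (g 1) * y⁻¹)) * y := by
            rw [hy.1, c1, mul_assoc t, ← map_mul, bb, map_one, mul_one]
        _ = _ := by group
    calc _ = y * (q * (y⁻¹ * t * y) * q⁻¹) * y⁻¹ := by group
      _ = y * (q * t * q⁻¹ * ι (g 1)) * y⁻¹ := by rw [e, mul_assoc q, mul_assoc t,
          (show Commute q (ι (g 1)) from hq.b).inv_left.eq.symm]; group
      _ = y * t * y⁻¹ * (y * ι (sg 1 v * g 1) * y⁻¹) := by rw [hq.tr, map_mul]; group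
      _ = _ := by
        rw [hy.1, hy.cj (mul_mem (sg_mem_V0 hv hb) g1_mem_V0), V0_comm (sg_mem_V0 hv hb) g1_mem_V0,
          mul_assoc, ← map_mul, ← mul_assoc, bb, one_mul]
  · calc _ = y * (q * (y⁻¹ * ι (sg 1 w) * y) * q⁻¹) * y⁻¹ := by group
      _ = _ := by rw [i _ (sg_mem_V0 hw bw), hq.sv w hw bw, hy.cj ((Sg.self hw bw).mulb _).mem]
  · conv_lhs => rw [← c1]
    conv_rhs => rw [← c1]
    calc _ = y * (q * ι (g 1)) * y⁻¹ := by group
      _ = _ := by rw [hq.b]; group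
  · have e : y * q * y⁻¹ * (y * q * y⁻¹) = y * (q * q) * y⁻¹ := by group
    rcases hq.sq with k | k <;> rw [e, k]
    exacts [Or.inl (by group), Or.inr c1]
  · obtain ⟨a, ha, rfl⟩ := hq.z hz
    exact ⟨a, ha, (hy.cj ha).symm⟩

theorem t_cj (h : Hy ι t) {q : G} {v : ℕ} (hq : PP ι t q v) : t * q * t⁻¹ = ι (sg 1 v) * q := by
  rw [h.tinv, ← h.ttx (ι (sg 1 v)), ← hq.tr]; group

theorem V_cj {q : G} {v : ℕ} (hq : PP ι t q v) {a : Sp} (ha : a ∈ V0) :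
    ∃ n, ι a * q * (ι a)⁻¹ = ι (g 1 ^ n) * q := by
  obtain ⟨c, hc⟩ := exists_sg (inv_mem ha)
  refine ⟨bf v c, ?_⟩
  calc _ = ι a * (q * ι a⁻¹ * q⁻¹) * q := by rw [map_inv]; group
    _ = _ := by rw [pp_cj hq hc, ← map_mul, mul_inv_cancel_left]

theorem act2 (h : Hy ι t) (P : PQc ι t) {y q : G} (hy : Xc ι t y) (hq : PP ι t q 2) :
    ∃ γ, (Sg 0 γ ∨ Sg 2 γ) ∧ y * q * y⁻¹ = ι γ * q := by
  obtain ⟨γ, hγ, e⟩ := pp_uniq P hq (hy.pp h hq (by decide) (by decide)) (by decide) (by decide)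
  obtain ⟨c, hc⟩ := exists_sg hγ
  have r2 : act rho 2 = 2 := (act_wd (by decide) (by decide)).trans (by decide +kernel)
  obtain ⟨a, ha, e1⟩ := pp_uniq P hq (r2 ▸ pp_P1 h hq (by decide) (by decide) rho_P1) (by decide)
    (by decide)
  have hy' := hy.P1 h rho_P1
  have hf : y⁻¹ * (ι rho * y * (ι rho)⁻¹) ∈ E1 ι t := h.cen_E1 (by
      rw [← mul_inv_eq_iff_eq_mul, mul_inv_rev, inv_inv]
      calc _ = y⁻¹ * (ι rho * y * (ι rho)⁻¹ * t * (ι rho * y * (ι rho)⁻¹)⁻¹) * y := by group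
        _ = _ := by rw [hy'.1, ← hy.1]; group) fun a ha => by
    rw [mul_assoc, hy'.2 a ha, ← mul_assoc, ← mul_assoc, (show Commute y (ι a) from hy.2 a ha).inv_left.eq]
    group
  obtain ⟨δ, hδ, e2⟩ : ∃ δ, (Sg 0 δ ∨ Sg 2 δ) ∧ y⁻¹ * (ι rho * y * (ι rho)⁻¹) * (ι a * q) *
      (y⁻¹ * (ι rho * y * (ι rho)⁻¹))⁻¹ = ι (a * δ) * q := by
    obtain ⟨f, hf, k | k⟩ := h.mem_E1.1 hf <;> obtain ⟨n, e3⟩ := V_cj hq hf <;> rw [k]
    · refine ⟨_, Or.inl (sg_one.mulb n), ?_⟩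
      calc _ = ι (f * a) * (ι f)⁻¹ * (ι f * q * (ι f)⁻¹) := by rw [map_mul]; group
        _ = _ := by rw [e3, V0_comm hf ha]; simp [mul_assoc]
    · refine ⟨_, Or.inr (by simpa using (sg_one.mulb n).mul (Sg.self (c := 2) (by decide) (by decide))), ?_⟩
      calc _ = t * (ι (f * a) * (ι f)⁻¹ * (ι f * q * (ι f)⁻¹)) * t⁻¹ := by rw [map_mul]; group
        _ = t * ι (a * g 1 ^ n) * t⁻¹ * (t * q * t⁻¹) := by
          rw [e3, V0_comm hf ha]; simp [mul_assoc]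
        _ = _ := by rw [t_cj h hq, h.ct]; simp [mul_assoc]
  have mδ : δ ∈ V0 := hδ.elim Sg.mem Sg.mem
  have e3 : rho * γ * rho⁻¹ = δ * γ := by
    have : ι (rho * γ * rho⁻¹ * a) * q = ι (a * δ * γ) * q := by
      calc _ = ι rho * (ι γ * q) * (ι rho)⁻¹ := by
            rw [map_mul, mul_assoc, ← e1]; simp [mul_assoc]
        _ = y * (y⁻¹ * (ι rho * y * (ι rho)⁻¹) * (ι a * q) * (y⁻¹ * (ι rho * y * (ι rho)⁻¹))⁻¹) * y⁻¹ := by
            rw [← e, ← e1]; group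
        _ = y * ι (a * δ) * y⁻¹ * (y * q * y⁻¹) := by rw [e2]; group
        _ = _ := by rw [hy.cj (mul_mem ha mδ), e, map_mul _ _ γ, mul_assoc]
    have := h.inj (mul_right_cancel this)
    rw [mul_assoc a, V0_comm ha (mul_mem mδ hγ)] at this
    exact mul_right_cancel this
  have e4 : bf 2 c = 0 := by
    have k : ι (g 1 ^ bf 2 c) * (q * q) = q * q := by
      calc _ = ι γ * (q * ι γ * q⁻¹) * (q * q) := by
            rw [pp_cj hq hc, ← map_mul, ← mul_assoc γ, V0_sq hγ, one_mul]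
        _ = y * (q * q) * y⁻¹ := by
            rw [show y * (q * q) * y⁻¹ = y * q * y⁻¹ * (y * q * y⁻¹) by group, e]; group
        _ = _ := by
            rcases hq.sq with k | k <;> rw [k]
            exacts [by group, hy.cj g1_mem_V0]
    rcases (bf_facts 2 (by decide) c hc.1).2.1 with k1 | k1
    · exact k1
    · rw [k1, pow_one, mul_eq_right, ← map_one ι] at k
      exact absurd (h.inj k) b1
  have k1 := hc.conj rho_P1
  rw [e3, show act rho c = wd [4, 32] c from act_wd (by decide) hc.1] at k1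
  have key : ∀ c < 64, bf 1 c = 0 → bf 2 c = 0 → wd [4, 32] c / 2 = (0 ^^^ c) / 2 ∨
      wd [4, 32] c / 2 = (2 ^^^ c) / 2 → c / 2 = 0 / 2 ∨ c / 2 = 2 / 2 := by decide +kernel
  exact ⟨γ, (key c hc.1 hc.2.1 e4 (hδ.imp (fun k => k1.uniq (k.mul hc)) fun k => k1.uniq (k.mul hc))).imp
    (hc.congr (by decide) (by decide)) (hc.congr (by decide) (by decide)), e⟩

theorem act1 (h : Hy ι t) (P : PQc ι t) {y q : G} {v : ℕ} (hy : Xc ι t y) (hq : PP ι t q v) (hv : v < 64)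
    (hb : bf 1 v = 0) (h2 : 2 ≤ v) : ∃ γ, (Sg 0 γ ∨ Sg v γ) ∧ y * q * y⁻¹ = ι γ * q := by
  obtain ⟨l, l1, l2⟩ := exists_fix_one hv h2 hb
  have hl := mem_P1.2 l1
  obtain ⟨γ, a, e⟩ := act2 h P (hy.P1 h hl) (l2 ▸ pp_P1 h hq hv hb hl)
  refine ⟨l⁻¹ * γ * l⁻¹⁻¹, a.imp (fun k => act_zero l⁻¹ ▸ k.conj (inv_mem hl)) fun k => ?_, ?_⟩
  · have := k.conj (inv_mem hl)
    have e : act l⁻¹ 2 = v := (congrArg (act l⁻¹) l2.symm).trans (act_inv_act l hv)
    rwa [e] at this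
  · calc _ = (ι l)⁻¹ * (ι l * y * (ι l)⁻¹ * (ι l * q * (ι l)⁻¹) * (ι l * y * (ι l)⁻¹)⁻¹) * ι l := by group
      _ = _ := by rw [e]; simp [mul_assoc]

theorem act_mul' {y q q' : G} {u c d : ℕ} {γ γ' : Sp} (hq : PP ι t q u) (a : Sg c γ) (a' : Sg d γ')
    (e : y * q * y⁻¹ = ι γ * q) (e' : y * q' * y⁻¹ = ι γ' * q') :
    Sg (c ^^^ d) (γ * (γ' * g 1 ^ bf u d)) ∧
      y * (q * q') * y⁻¹ = ι (γ * (γ' * g 1 ^ bf u d)) * (q * q') := by
  refine ⟨a.mul (a'.mulb _), ?_⟩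
  calc _ = y * q * y⁻¹ * (y * q' * y⁻¹) := by group
    _ = _ := by rw [e, e', map_mul, ← pp_cj hq a']; group

theorem step (h : Hy ι t) (P : PQc ι t) {y q q' : G} {u v : ℕ} {l s s' : Sp} (hy : Xc ι t y) (hl : l ∈ P1)
    (hv : v < 64) (bv : bf 1 v = 0) (e : y * ι l * y⁻¹ = ι (l * sg 1 v)) (hu : u < 64) (bu : bf 1 u = 0)
    (hq : PP ι t q u) (uv : bf u v = 1) (hq' : PP ι t q' (act l u)) (a : Sg 0 s)
    (f : y * q * y⁻¹ = ι s * q) (f' : y * q' * y⁻¹ = ι s' * q') : s' = s * g 1 := by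
  obtain ⟨x, hx, e1⟩ := pp_uniq P (pp_P1 h hq hu bu hl) hq' (act_lt _ _) (P1_conj_sg hl hu bu).2
  have c : l * (s * g 1) * l⁻¹ = s * g 1 := by
    rcases a.zero with rfl | rfl
    · rw [one_mul, P1_comm hl, mul_inv_cancel_right]
    · rw [bb]; group
  have k := pp_cj hq (Sg.self hv bv)
  rw [uv, pow_one] at k
  have s2 : (ι (sg 1 v))⁻¹ = ι (sg 1 v) := by
    rw [← map_inv, inv_eq_of_mul_eq_one_right (V0_sq (sg_mem_V0 hv bv))]
  have : ι s' * q' = ι (s * g 1) * q' := by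
    calc _ = y * ι x * y⁻¹ * (y * ι l * y⁻¹) * (y * q * y⁻¹) * (y * ι l * y⁻¹)⁻¹ := by
          rw [← f', e1]; group
      _ = ι x * ι l * (ι (sg 1 v * s) * (q * (ι (sg 1 v))⁻¹ * q⁻¹)) * q * (ι l)⁻¹ := by
          rw [hy.cj hx, e, f, map_mul, map_mul]; group
      _ = ι (x * (l * (s * g 1) * l⁻¹)) * (ι l * q * (ι l)⁻¹) := by
          rw [s2, k, ← map_mul ι (sg 1 v * s), V0_comm (sg_mem_V0 hv bv) a.mem, mul_assoc s,
            ← mul_assoc (sg 1 v), V0_sq (sg_mem_V0 hv bv), one_mul]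
          simp [mul_assoc]
      _ = _ := by rw [c, V0_comm hx (mul_mem a.mem g1_mem_V0), e1, map_mul, mul_assoc]
  exact h.inj (mul_right_cancel this)

theorem fin (h : Hy ι t) (P : PQc ι t) {y q2 q4 q16 q32 : G} (hy : Xv ι t y true) (h2 : PP ι t q2 2)
    (h4 : PP ι t q4 4) (h16 : PP ι t q16 16) (h32 : PP ι t q32 32) {s2 s4 s16 s32 : Sp}
    (a2 : Sg 0 s2) (a4 : Sg 0 s4) (a16 : Sg 0 s16) (a32 : Sg 0 s32)
    (e2 : y * q2 * y⁻¹ = ι s2 * q2) (e4 : y * q4 * y⁻¹ = ι s4 * q4)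
    (e16 : y * q16 * y⁻¹ = ι s16 * q16) (e32 : y * q32 * y⁻¹ = ι s32 * q32) : False := by
  have hc : Xc ι t y := ⟨hy.tr, hy.cV⟩
  have mP : ∀ {v : ℕ}, v < 8 → g v ∈ P1 := fun hv => A_le_P1 (g_mem_A hv)
  have k1 := step h P hc (mP (v := 2) (by decide)) (v := 2) (by decide) (by decide) hy.b2 (by decide)
    (by decide) h16 (by decide) (q' := q16 * q2) (by
      rw [act_g (by decide) (by decide)]
      exact P.mul 16 (by decide) 2 (by decide) (by decide) (by decide) _ _ h16 h2) a16 e16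
    (act_mul' h16 a16 a2 e16 e2).2
  have k2 := step h P hc (mP (v := 4) (by decide)) (v := 4) (by decide) (by decide) hy.b3 (by decide)
    (by decide) h32 (by decide) (q' := q32 * q4) (by
      rw [act_g (by decide) (by decide)]
      exact P.mul 32 (by decide) 4 (by decide) (by decide) (by decide) _ _ h32 h4) a32 e32
    (act_mul' h32 a32 a4 e32 e4).2
  have b6 : y * ι (g 6) * y⁻¹ = ι (g 6 * sg 1 6) := by
    have e1 : g 6 = g 2 * g 4 * a23 := by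
      simp only [g_eq, a23, sg, ← ev_append]; exact weq (by decide +kernel)
    have e2 : g 6 * sg 1 6 = g 2 * a12 * (g 4 * a13) * a23 := by
      simp only [g_eq, a12, a13, a23, sg, ← ev_append]; exact weq (by decide +kernel)
    have b2 : y * ι (g 2) * y⁻¹ = ι (g 2 * a12) := hy.b2
    have b3 : y * ι (g 4) * y⁻¹ = ι (g 4 * a13) := hy.b3
    have c : y * ι a23 * y⁻¹ = ι a23 := by rw [hy.c23, mul_inv_cancel_right]
    rw [e2, map_mul, map_mul _ (g 2 * a12), ← b2, ← b3, e1, map_mul, map_mul]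
    conv_rhs => rw [← c]
    group
  obtain ⟨a6, e6⟩ := act_mul' h2 a2 a4 e2 e4
  have k3 := step h P hc (mP (v := 6) (by decide)) (v := 6) (by decide) (by decide) b6 (by decide)
    (by decide) h16 (by decide) (q' := q16 * (q2 * q4)) (by
      rw [act_g (by decide) (by decide)]
      exact P.mul 16 (by decide) 6 (by decide) (by decide) (by decide) _ _ h16
        (P.mul 2 (by decide) 4 (by decide) (by decide) (by decide) _ _ h2 h4)) a16 e16
    (act_mul' h16 a16 a6 e16 e6).2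
  have z : ∀ u, bf u 0 = 0 := fun u => by simp [bf]
  simp only [z, Nat.xor_self, pow_zero, mul_one, mul_right_inj] at k1 k2 k3
  rw [k1, k2, bb] at k3
  exact b1 k3.symm

theorem zq : ZQStmt.{u} := by
  intro _ G _ _ ι t h P x k hx
  cases k
  · rfl
  exfalso
  have hc : Xc ι t x := ⟨hx.tr, hx.cV⟩
  obtain ⟨q2, h2⟩ := P.ex 2 (by decide) (by decide)
  obtain ⟨q4, h4⟩ := P.ex 4 (by decide) (by decide)
  obtain ⟨q16, h16⟩ := P.ex 16 (by decide) (by decide)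
  obtain ⟨q32, h32⟩ := P.ex 32 (by decide) (by decide)
  obtain ⟨s2, a2, e2⟩ := act1 h P hc h2 (by decide) (by decide) (by decide)
  obtain ⟨s4, a4, e4⟩ := act1 h P hc h4 (by decide) (by decide) (by decide)
  obtain ⟨s16, a16, e16⟩ := act1 h P hc h16 (by decide) (by decide) (by decide)
  obtain ⟨s32, a32, e32⟩ := act1 h P hc h32 (by decide) (by decide) (by decide)
  have cmp : ∀ {u v c d : ℕ} {q q' : G} {γ γ' : Sp}, PP ι t q u → PP ι t q' v → u < 64 → v < 64 →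
      bf 1 u = 0 → bf 1 v = 0 → bf 1 (u ^^^ v) = 0 → 2 ≤ u ^^^ v → Sg c γ → Sg d γ' →
      x * q * x⁻¹ = ι γ * q → x * q' * x⁻¹ = ι γ' * q' →
      (c ^^^ d) / 2 = 0 / 2 ∨ (c ^^^ d) / 2 = (u ^^^ v) / 2 :=
    fun hq hq' hu hv bu bv b h2 a a' e e' => by
      obtain ⟨δ, k, f⟩ := act1 h P hc (P.mul _ hu _ hv bu bv _ _ hq hq') (xor_lt hu hv) b h2
      obtain ⟨k', f'⟩ := act_mul' hq a a' e e'
      rw [← h.inj (mul_right_cancel (f.symm.trans f'))] at k'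
      exact k.imp k'.uniq k'.uniq
  have c1 := fun {c d} a a' => cmp (c := c) (d := d) h2 h4 (by decide) (by decide) (by decide)
    (by decide) (by decide) (by decide) a a' e2 e4
  have c2 := fun {c d} a a' => cmp (c := c) (d := d) h2 h16 (by decide) (by decide) (by decide)
    (by decide) (by decide) (by decide) a a' e2 e16
  have c3 := fun {c d} a a' => cmp (c := c) (d := d) h2 h32 (by decide) (by decide) (by decide)
    (by decide) (by decide) (by decide) a a' e2 e32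
  rcases a2 with a2 | a2
  · exact fin h P hx h2 h4 h16 h32 a2 (a4.resolve_right fun a => absurd (c1 a2 a) (by decide))
      (a16.resolve_right fun a => absurd (c2 a2 a) (by decide))
      (a32.resolve_right fun a => absurd (c3 a2 a) (by decide)) e2 e4 e16 e32
  have ct : ∀ l, x * t * ι l * (x * t)⁻¹ = x * ι l * x⁻¹ := fun l => by
    rw [mul_assoc x, h.ct]; group
  have hx' : Xv ι t (x * t) true := ⟨by rw [← hx.tr]; group,
    fun v hv => by rw [← mul_inv_eq_iff_eq_mul, ct, hc.cj hv],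
    by rw [← mul_inv_eq_iff_eq_mul, ct, hx.c23, mul_inv_cancel_right], (ct _).trans hx.b2,
    (ct _).trans hx.b3⟩
  have tw : ∀ {v : ℕ} {q : G} {γ : Sp}, PP ι t q v → Sg v γ → x * q * x⁻¹ = ι γ * q →
      Sg 0 (sg 1 v * γ) ∧ x * t * q * (x * t)⁻¹ = ι (sg 1 v * γ) * q := fun {v q γ} hq a e => by
    refine ⟨by simpa using (Sg.self a.1 a.2.1).mul a, ?_⟩
    calc _ = x * (t * q * t⁻¹) * x⁻¹ := by group
      _ = x * ι (sg 1 v) * x⁻¹ * (x * q * x⁻¹) := by rw [t_cj h hq]; group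
      _ = _ := by rw [hc.cj (sg_mem_V0 a.1 a.2.1), e, map_mul, mul_assoc]
  have t2 := tw h2 a2 e2
  have t4 := tw h4 (a4.resolve_left fun a => absurd (c1 a2 a) (by decide)) e4
  have t16 := tw h16 (a16.resolve_left fun a => absurd (c2 a2 a) (by decide)) e16
  have t32 := tw h32 (a32.resolve_left fun a => absurd (c3 a2 a) (by decide)) e32
  exact fin h P hx' h2 h4 h16 h32 t2.1 t4.1 t16.1 t32.1 t2.2 t4.2 t16.2 t32.2

end Cfsg.Agent.H76.S6ZQ
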