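import Cfsg.Agent.H74.UVDefs

/-! Project UV, piece ORBY: the number of orbits of a subgroup supplemented by the scalars. -/

set_option autoImplicit false

namespace Cfsg.Agent.H76.UvOrby

open Cfsg Module Finset Cfsg.Agent.H31 Cfsg.Agent.H77.Sg Cfsg.Agent.H11 Cfsg.Agent.H74.UV
open scoped ComplexConjugate

universe u

theorem orby (hI : IrryStmt.{u}) (hN : H74.UV.CntStmt.{u}) : OrbyStmt.{u} := by
  intro E K _ _ _ _ _ σ B q R t G Y C Z hY hz hirr
  classical
  let := Fintype.ofFinite Y
  let := Fintype.ofFinite K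
  let := Fintype.ofFinite (MulAction.orbitRel.Quotient Y K)
  have : Finite (Ch K q) := Nat.finite_of_card_ne_zero (by rw [C.cardCh]; omega)
  let := Fintype.ofFinite (Ch K q)
  have e1 : classInner (fun g : Y => wo q g.1) (fun g : Y => wo q g.1) = nO Y := by
    have e := MulAction.sum_card_fixedBy_eq_card_orbits_mul_card_group Y K
    refine mul_left_cancel₀ (card_ne_zero Y) ?_
    rw [card_mul_classInner, nO, Nat.card_eq_fintype_card, Nat.card_eq_fintype_card, mul_comm,
      ← Nat.cast_mul, ← e, Nat.cast_sum]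
    refine sum_congr rfl fun g _ => ?_
    rw [← Nat.card_eq_fintype_card, show conj (wo q g.1) = wo q g.1 by simp [wo], Z.sq]
    rfl
  have e2 : (fun g : Y => wo q g.1) = ∑ ν : Ch K q, fun g : Y => ze q ν g.1 := by
    funext g
    rw [Finset.sum_apply, ← Z.sum, finsum_eq_sum_of_fintype]
  have irr := fun ν => hI E K σ B q R t G Y C Z hY hz ν (hirr ν)
  have e3 : nO Y = ∑ ν : Ch K q, #(univ.filter fun ν' : Ch K q =>
      (fun g : Y => ze q ν g.1) = fun g : Y => ze q ν' g.1) := by
    rw [e2, classInner_sum_left, sum_congr rfl fun ν _ => by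
      rw [classInner_sum_right, sum_congr rfl fun ν' _ => classInner_irr (irr ν) (irr ν'),
        sum_boole]] at e1
    exact_mod_cast e1.symm
  have cnt : ∀ ν : Ch K q, #(univ.filter fun ν' : Ch K q =>
      ∀ z : Rt K (q + 1), mulH E K z ∈ Y → ν' z = ν z) = Y.relIndex G := fun ν => by
    rw [← hN E K σ B q R t G Y C hY hz ν, Nat.card_eq_fintype_card, Fintype.card_subtype]
  have deg : ∀ ν : Ch K q, ze q ν (1 : K ≃ₗ[E] K) ≠ 0 := fun ν => by
    have h1 : 2 ≤ R * t := by
      have := C.t43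
      rcases C.hR with h | h <;> rw [h.1] <;> omega
    rw [Z.deg, dl]
    split_ifs
    · rw [sub_ne_zero]; exact_mod_cast (by omega : R * t ≠ 1)
    · rw [sub_zero]; exact_mod_cast (by omega : R * t ≠ 0)
  have key : ∀ ν ν' : Ch K q, ((fun g : Y => ze q ν g.1) = fun g : Y => ze q ν' g.1) →
      (ν = 1 ↔ ν' = 1) ∧ ∀ z : Rt K (q + 1), mulH E K z ∈ Y → ν' z = ν z := fun ν ν' h => by
    have h1 : ze q ν (1 : K ≃ₗ[E] K) = ze q ν' 1 := congrFun h 1
    refine ⟨?_, fun z hz => ?_⟩
    · rw [Z.deg, Z.deg, sub_right_inj, dl, dl] at h1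
      split_ifs at h1 with a b b
      exacts [iff_of_true a b, absurd h1 one_ne_zero, absurd h1 zero_ne_one, iff_of_false a b]
    · have h2 : ze q ν (mulH E K z) = ze q ν' (mulH E K z) := congrFun h ⟨_, hz⟩
      rw [← mul_one (mulH E K z), Z.cen, Z.cen, ← h1] at h2
      exact Units.ext (mul_right_cancel₀ (deg ν) h2).symm
  have bd : ∀ ν : Ch K q, #(univ.filter fun ν' : Ch K q =>
      (fun g : Y => ze q ν g.1) = fun g : Y => ze q ν' g.1) +
      (if ∀ z : Rt K (q + 1), mulH E K z ∈ Y → ν z = (1 : Ch K q) z then 1 else 0) ≤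
      if ν = 1 then 2 else Y.relIndex G := fun ν => by
    by_cases h : ν = 1
    · have : #(univ.filter fun ν' : Ch K q =>
          (fun g : Y => ze q ν g.1) = fun g : Y => ze q ν' g.1) ≤ 1 :=
        card_le_one.2 fun a ha b hb => ((key ν a (mem_filter.1 ha).2).1.1 h).trans
          ((key ν b (mem_filter.1 hb).2).1.1 h).symm
      rw [if_pos h]
      split_ifs <;> omega
    · rw [if_neg h, ← cnt ν]
      split_ifs with h1
      · rw [← card_insert_of_notMem (a := 1) fun h2 => h ((key ν 1 (mem_filter.1 h2).2).1.2 rfl)]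
        refine card_le_card (insert_subset (mem_filter.2 ⟨mem_univ _, fun z hz => (h1 z hz).symm⟩)
          fun a ha => mem_filter.2 ⟨mem_univ _, (key ν a (mem_filter.1 ha).2).2⟩)
      · exact card_le_card fun a ha => mem_filter.2 ⟨mem_univ _, (key ν a (mem_filter.1 ha).2).2⟩
  have h := sum_le_sum fun ν (_ : ν ∈ (univ : Finset (Ch K q))) => bd ν
  rw [sum_add_distrib, ← e3, ← card_filter, cnt, ← add_sum_erase _ _ (mem_univ 1), if_pos rfl,
    sum_congr rfl fun ν hν => if_neg (ne_of_mem_erase hν), sum_const, card_erase_of_mem (mem_univ _),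
    card_univ, ← Nat.card_eq_fintype_card, C.cardCh, smul_eq_mul, Nat.add_sub_cancel] at h
  omega

end Cfsg.Agent.H76.UvOrby
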