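import Cfsg.Agent.H76.NilKer
import Cfsg.Agent.H76.Wall
import Cfsg.Agent.H76.Unitary

set_option autoImplicit false

namespace Cfsg.Agent.H76

universe u v w

open Module Polynomial

section Hom
variable {F : Type u} [Field F] {V : Type*} [AddCommGroup V] [Module F V]
  {W : Type*} [AddCommGroup W] [Module F W]

/-- The intertwiners between two endomorphisms. -/
def homS (f : End F V) (g : End F W) : Submodule F (V →ₗ[F] W) where
  carrier := {x | ∀ v, x (f v) = g (x v)}
  add_mem' ha hb v := by simp [ha v, hb v]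
  zero_mem' v := by simp
  smul_mem' c x hx v := by simp [hx v]

theorem Sim.finrank_homS {U : Type*} [AddCommGroup U] [Module F U] {f : End F V} {f' : End F U}
    (h : Sim f f') (g : End F W) : finrank F (homS f g) = finrank F (homS f' g) := by
  obtain ⟨e, he⟩ := h
  have he' : ∀ v, e.symm (f' v) = f (e.symm v) := fun v => by
    rw [LinearEquiv.symm_apply_eq, he, e.apply_symm_apply]
  exact LinearEquiv.finrank_eq
    { toFun x := ⟨x.1 ∘ₗ e.symm, fun v => by simp [he', x.2 (e.symm v)]⟩
      invFun x := ⟨x.1 ∘ₗ e, fun v => by simp [he, x.2 (e v)]⟩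
      map_add' _ _ := rfl
      map_smul' _ _ := rfl
      left_inv x := by ext; simp
      right_inv x := by ext; simp }

theorem exists_lift_cyc {m : F[X]} {g : End F W} {w : W} (hw : aeval g m w = 0) :
    ∃ x : AdjoinRoot m →ₗ[F] W, ∀ a, x (AdjoinRoot.mk m a) = aeval g a w := by
  let π : F[X] →ₗ[F] AdjoinRoot m := (AdjoinRoot.mkₐ m).toLinearMap
  obtain ⟨s, hs⟩ := π.exists_rightInverse_of_surjective
    (LinearMap.range_eq_top.2 (AdjoinRoot.mk_surjective))
  refine ⟨(LinearMap.applyₗ w ∘ₗ (aeval g).toLinearMap) ∘ₗ s, fun a => ?_⟩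
  have h1 : AdjoinRoot.mk m (s (AdjoinRoot.mk m a)) = AdjoinRoot.mk m a := LinearMap.congr_fun hs _
  obtain ⟨b, hb⟩ := AdjoinRoot.mk_eq_mk.1 h1
  change aeval g (s (AdjoinRoot.mk m a)) w = _
  rw [sub_eq_iff_eq_add.1 hb, mul_comm]
  simp [hw]

theorem finrank_homS_model {ι : Type*} [Fintype ι] [FiniteDimensional F W] (m : ι → F[X])
    (g : End F W) : finrank F (homS (model m) g) = ∑ i, kerDim g (m i) := by
  classical
  have key : ∀ (i : ι) (a : F[X]), aeval (model m) a (Pi.single i 1) =
      Pi.single i (AdjoinRoot.mk (m i) a) := fun i a => by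
    funext j
    rw [aeval_model_apply]
    by_cases h : j = i
    · subst h; simp
    · simp [h]
  let Φ : homS (model m) g →ₗ[F] ∀ i, LinearMap.ker (aeval g (m i)) :=
    { toFun x i := ⟨x.1 (Pi.single i 1), by
        rw [LinearMap.mem_ker, ← aeval_intertwine x.1 x.2, key]; simp⟩
      map_add' _ _ := rfl
      map_smul' _ _ := rfl }
  rw [(LinearEquiv.ofBijective Φ ⟨?_, ?_⟩).finrank_eq, Module.finrank_pi_fintype]
  · rfl
  · intro x y h
    refine Subtype.ext (LinearMap.pi_ext fun i v => ?_)
    obtain ⟨a, rfl⟩ := AdjoinRoot.mk_surjective v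
    rw [← key, aeval_intertwine x.1 x.2, aeval_intertwine y.1 y.2]
    exact congrArg _ (congrArg Subtype.val (congrFun h i))
  · intro w
    choose x hx using fun i => exists_lift_cyc (w i).2
    refine ⟨⟨∑ i, x i ∘ₗ LinearMap.proj i, fun v => ?_⟩, funext fun i => Subtype.ext ?_⟩
    · simp only [LinearMap.sum_apply, LinearMap.comp_apply, LinearMap.proj_apply, map_sum,
        model_apply]
      refine Finset.sum_congr rfl fun i _ => ?_
      obtain ⟨a, ha⟩ := AdjoinRoot.mk_surjective (v i)
      rw [← ha, ← AdjoinRoot.mk_X, ← map_mul, hx, hx]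
      simp
    · change (∑ j, x j ∘ₗ LinearMap.proj j) (Pi.single i 1) = w i
      simp only [LinearMap.sum_apply, LinearMap.comp_apply, LinearMap.proj_apply]
      rw [Finset.sum_eq_single i (fun j _ h => by simp [h]) (by simp), Pi.single_eq_same,
        ← map_one (AdjoinRoot.mk (m i)), hx]
      simp

theorem HasED.finrank_homS [FiniteDimensional F W] {f : End F V} {s : Multiset (F[X] × ℕ)}
    (h : HasED f s) (g : End F W) :
    finrank F (homS f g) = (s.map fun x => kerDim g (x.1 ^ x.2)).sum := by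
  obtain ⟨-, t, x, rfl, hx⟩ := h
  rw [hx.finrank_homS, finrank_homS_model, Multiset.map_map]
  rfl

theorem finrank_cent_sub_one (g : End F V) :
    finrank F (Subalgebra.centralizer F {g - 1}) = finrank F (homS g g) :=
  LinearEquiv.finrank_eq
    { toFun x := ⟨x.1, fun v => by
        have := comm_apply (mem_cent.1 x.2) v
        simpa using this⟩
      invFun x := ⟨x.1, mem_cent.2 (LinearMap.ext fun v => by simp [x.2 v])⟩
      map_add' _ _ := rfl
      map_smul' _ _ := rfl
      left_inv _ := rfl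
      right_inv _ := rfl }

end Hom

theorem sum_map_eq_sum_range_count (m : Multiset ℕ) {D : ℕ} (h : ∀ e ∈ m, e < D) (f : ℕ → ℕ) :
    (m.map f).sum = ∑ i ∈ Finset.range D, m.count i * f i := by
  rw [Finset.sum_multiset_map_count]
  refine Finset.sum_subset (fun e he => Finset.mem_range.2 (h e (Multiset.mem_toFinset.1 he)))
    fun e _ he => ?_
  rw [Multiset.count_eq_zero_of_notMem (by simpa using he), zero_smul]

/-- The exponent of the unipotent radical of the centraliser of a unipotent element. -/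
def gam (a : ℕ → ℕ) (D : ℕ) : ℕ :=
  2 * (∑ i ∈ Finset.range D, ∑ j ∈ Finset.range D, if i < j then i * a i * a j else 0) +
    ∑ i ∈ Finset.range D, (i - 1) * a i ^ 2

theorem sum_min_eq (a : ℕ → ℕ) (h0 : a 0 = 0) (D : ℕ) :
    ∑ i ∈ Finset.range D, a i * ∑ j ∈ Finset.range D, a j * min i j =
      gam a D + ∑ i ∈ Finset.range D, a i ^ 2 := by
  have h1 : ∀ i j, a i * (a j * min i j) = (if i < j then i * a i * a j else 0) +
      (if j < i then j * a j * a i else 0) + if i = j then (i - 1) * a i ^ 2 + a i ^ 2 else 0 := by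
    intro i j
    rcases lt_trichotomy i j with h | rfl | h
    · simp [h, h.le, h.ne, h.not_gt]; ring
    · rcases i with _ | i <;> simp [h0]; ring
    · simp [h, h.le, h.ne', h.not_gt]; ring
  rw [gam, two_mul]
  simp only [Finset.mul_sum, h1, Finset.sum_add_distrib]
  rw [Finset.sum_comm (f := fun i j => if j < i then j * a j * a i else 0), add_assoc _ _
    (∑ i ∈ Finset.range D, a i ^ 2), ← Finset.sum_add_distrib (s := Finset.range D)
    (f := fun i => (i - 1) * a i ^ 2)]
  congr 1
  exact Finset.sum_congr rfl fun i hi => by simp [hi]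

theorem card_units_end {F : Type*} [Field F] [Fintype F] (M : Type*) [AddCommGroup M] [Module F M]
    [FiniteDimensional F M] : Nat.card (End F M)ˣ =
      ∏ i : Fin (finrank F M), (Fintype.card F ^ finrank F M - Fintype.card F ^ (i : ℕ)) := by
  rw [← Matrix.card_GL_field]
  exact Nat.card_congr (Matrix.GeneralLinearGroup.toLin' (finBasis F M)).toEquiv.symm

section Unip
variable {F : Type u} [Field F] {V : Type*} [AddCommGroup V] [Module F V] [FiniteDimensional F V]

/-- The action of the centraliser of `N` on the multiplicity spaces. -/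
def rhoR (N : End F V) (D : ℕ) (j : Fin D) : Subalgebra.centralizer F {N} →+* End F (MM N j) :=
  (rho N j).toRingHom

theorem rhoR_surjective (N : End F V) (D : ℕ) (u : ∀ j : Fin D, End F (MM N j)) :
    ∃ x, ∀ j, rhoR N D j x = u j := by
  obtain ⟨x, -, hx⟩ := exists_rho_eq (N := N) fun j => if h : j < D then u ⟨j, h⟩ else 0
  exact ⟨x, fun j => (hx j).trans (dif_pos j.2)⟩

variable {g : End F V} {m : Multiset ℕ} {D : ℕ}

theorem finrank_MM_unip (h : ed g = m.map fun e => (X - 1, e)) (j : ℕ) :
    finrank F (MM (g - 1) j) = m.count (j + 1) := by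
  classical
  rw [finrank_MM_eq_count, h]
  convert Multiset.count_map_eq_count' _ _ (Prod.mk_right_injective _) _

theorem pos_of_ed_unip (h : ed g = m.map fun e => (X - 1, e)) {e : ℕ} (he : e ∈ m) : 0 < e :=
  (valid_ed g (X - 1, e) (h ▸ Multiset.mem_map_of_mem _ he)).2.2

theorem pow_eq_zero_of_ed_unip (h : ed g = m.map fun e => (X - 1, e)) (hD : ∀ e ∈ m, e ≤ D) :
    (g - 1) ^ D = 0 := by
  have := ((hasED_ed g).aeval_eq_zero_iff ((X - 1) ^ D)).2 (by
    rw [h]
    intro x hx
    obtain ⟨e, he, rfl⟩ := Multiset.mem_map.1 hx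
    exact pow_dvd_pow _ (hD e he))
  simpa using this

theorem isNilpotent_of_rhoR [Finite F] (h : ed g = m.map fun e => (X - 1, e))
    (hD : ∀ e ∈ m, e ≤ D) (x : Subalgebra.centralizer F {g - 1}) (hx : ∀ j, rhoR (g - 1) D j x = 0) :
    IsNilpotent x := by
  obtain ⟨k, hk⟩ := exists_pow_eq_zero_of_rho x fun j => by
    by_cases hj : j < D
    · exact hx ⟨j, hj⟩
    · have : Subsingleton (MM (g - 1) j) := by
        rw [← Module.finrank_zero_iff (R := F), finrank_MM_unip h]
        exact Multiset.count_eq_zero_of_notMem fun h' => by have := hD _ h'; omega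
      exact Subsingleton.elim _ _
  refine ⟨k, Subtype.ext (LinearMap.ext fun w => ?_)⟩
  simpa using hk D w (by rw [mem_KK, pow_eq_zero_of_ed_unip h hD]; rfl)

theorem finrank_cent_unip (h : ed g = m.map fun e => (X - 1, e)) (hD : ∀ e ∈ m, e ≤ D) :
    finrank F (Subalgebra.centralizer F {g - 1}) =
      gam m.count (D + 1) + ∑ i ∈ Finset.range (D + 1), m.count i ^ 2 := by
  classical
  have hD' : ∀ e ∈ m, e < D + 1 := fun e he => Nat.lt_succ_of_le (hD e he)
  have h1 : (X - 1 : F[X]) = X - C 1 := by simp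
  rw [finrank_cent_sub_one, (hasED_ed g).finrank_homS, ← sum_min_eq m.count
    (Multiset.count_eq_zero_of_notMem fun h' => (pos_of_ed_unip h h').false),
    ← sum_map_eq_sum_range_count m hD', h, Multiset.map_map]
  congr 1
  refine Multiset.map_congr rfl fun e _ => ?_
  rw [Function.comp_apply, (hasED_ed g).kerDim_pow (h1 ▸ monic_X_sub_C 1)
    (h1 ▸ irreducible_X_sub_C 1), h, ← sum_map_eq_sum_range_count m hD', h1, natDegree_X_sub_C]
  simp

variable [Fintype F]

theorem card_ker_rhoR (h : ed g = m.map fun e => (X - 1, e)) (hD : ∀ e ∈ m, e ≤ D) :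
    Nat.card {x // ∀ j, rhoR (g - 1) D j x = 0} = Fintype.card F ^ gam m.count (D + 1) := by
  have : Finite (End F V) := finite_end
  have h1 := card_pi_ker (S := fun j : Fin D => End F (MM (g - 1) j)) (rhoR (g - 1) D)
    (rhoR_surjective (g - 1) D)
  rw [Module.natCard_eq_pow_finrank (K := F), finrank_cent_unip h hD,
    Nat.card_eq_fintype_card, pow_add, Finset.sum_range_succ', Multiset.count_eq_zero_of_notMem
      fun h' => (pos_of_ed_unip h h').false] at h1
  simp only [Module.natCard_eq_pow_finrank (K := F) (V := End F _), Module.finrank_linearMap,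
    finrank_MM_unip h, Nat.card_eq_fintype_card (α := F), Finset.prod_pow_eq_pow_sum] at h1
  rw [Fin.sum_univ_eq_sum_range (fun j => m.count (j + 1) * m.count (j + 1))] at h1
  simp only [← sq, ne_eq, OfNat.ofNat_ne_zero, not_false_eq_true, zero_pow, add_zero] at h1
  exact (Nat.eq_of_mul_eq_mul_right (pow_pos Fintype.card_pos _) h1).symm

/-- The order of the centraliser of a unipotent element of `GL(V)`. -/
theorem card_units_cent (h : ed g = m.map fun e => (X - 1, e)) (hD : ∀ e ∈ m, e ≤ D) :
    Nat.card (Subalgebra.centralizer F {g - 1})ˣ = Fintype.card F ^ gam m.count (D + 1) *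
      ∏ i ∈ Finset.range (D + 1), ∏ j : Fin (m.count i),
        (Fintype.card F ^ m.count i - Fintype.card F ^ (j : ℕ)) := by
  have : Finite (End F V) := finite_end
  have h0 : m.count 0 = 0 := Multiset.count_eq_zero_of_notMem fun h' => (pos_of_ed_unip h h').false
  rw [card_units_pi (S := fun j : Fin D => End F (MM (g - 1) j)) (rhoR (g - 1) D)
    (rhoR_surjective (g - 1) D) (isNilpotent_of_rhoR h hD),
    card_ker_rhoR h hD, Finset.prod_range_succ',
    ← Fin.prod_univ_eq_prod_range (fun i => ∏ j : Fin (m.count (i + 1)),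
      (Fintype.card F ^ m.count (i + 1) - Fintype.card F ^ (j : ℕ))), h0]
  simp only [card_units_end, finrank_MM_unip h, Finset.univ_eq_empty, Finset.prod_empty, mul_one]
  congr 1
  refine Finset.prod_congr rfl fun i _ => ?_
  rw [finrank_MM_unip h]

end Unip

section Form
variable {F : Type u} [Field F] {σ : F →+* F} {V : Type*} [AddCommGroup V] [Module F V]
  [FiniteDimensional F V] {ε : F} {B : V →ₛₗ[σ] V →ₗ[F] F} {g : End F V}

theorem commute_of_mem_cent {x : End F V} (hx : x ∈ Subalgebra.centralizer F {g - 1}) :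
    Commute x g := by
  simpa using (mem_cent.1 hx).add_right (Commute.one_right x)

/-- The adjoint on the centraliser of an isometry. -/
noncomputable def adjC (hB : SepR B) (hg : Pres B g) (x : Subalgebra.centralizer F {g - 1}) :
    Subalgebra.centralizer F {g - 1} :=
  ⟨adj B x, mem_cent.2 ((hB.adj_commute hg (commute_of_mem_cent x.2)).sub_right
    (Commute.one_right _))⟩

theorem isAnti_adjC (hB : SepR B) (hg : Pres B g) : IsAnti (adjC hB hg) :=
  ⟨fun _ _ => Subtype.ext (hB.isAnti.add _ _), fun _ _ => Subtype.ext (hB.isAnti.mul _ _),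
    Subtype.ext hB.isAnti.one⟩

theorem rho_adjC (hσ : ∀ a, σ (σ a) = a) (hB : SepR B) (hg : Pres B g) (j : ℕ)
    (x : Subalgebra.centralizer F {g - 1}) :
    rho (g - 1) j (adjC hB hg x) = adj (mform hB hg j) (rho (g - 1) j x) := by
  refine ((sepR_mform hσ hB hg j).adj_eq fun v w => ?_).symm
  obtain ⟨v, rfl⟩ := Submodule.Quotient.mk_surjective _ v
  obtain ⟨w, rfl⟩ := Submodule.Quotient.mk_surjective _ w
  rw [rho_mk, rho_mk, mform_mk, mform_mk, hB.adj_spec]
  exact congrArg _ (apply_pow_of_comm (comm_apply (mem_cent.1 (adjC hB hg x).2)) _ _)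

theorem card_pres_commute (hB : SepR B) (hg : Pres B g) :
    Nat.card {x // Commute x g ∧ Pres B x} = Nat.card {x // adjC hB hg x * x = 1} :=
  Nat.card_congr
    { toFun x := ⟨⟨x.1, mem_cent.2 (x.2.1.sub_right (Commute.one_right _))⟩,
        Subtype.ext (hB.pres_iff.1 x.2.2)⟩
      invFun x := ⟨x.1.1, commute_of_mem_cent x.1.2, hB.pres_iff.2 (congrArg Subtype.val x.2)⟩
      left_inv _ := rfl
      right_inv _ := rfl }

variable {m : Multiset ℕ} {D : ℕ} [Fintype F]

/-- The order of the centraliser of a unipotent isometry, in terms of the symmetric elements of the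
radical. -/
theorem card_pres_cent (hB : IsEForm ε B) (hg : Pres B g) {c : F} (hc : c + σ c = 1)
    (h : ed g = m.map fun e => (X - 1, e)) (hD : ∀ e ∈ m, e ≤ D) :
    Nat.card {x // Commute x g ∧ Pres B x} *
      Nat.card {x // (∀ j, rhoR (g - 1) D j x = 0) ∧ adjC hB.sep hg x = x} =
      Fintype.card F ^ gam m.count (D + 1) *
        ∏ j : Fin D, Nat.card {s // Pres (mform hB.sep hg j) s} := by
  have : Finite (End F V) := finite_end
  rw [card_pres_commute hB.sep hg, card_unitary_pi (S := fun j : Fin D => End F (MM (g - 1) j))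
    (rhoR (g - 1) D) (rhoR_surjective (g - 1) D) (isNilpotent_of_rhoR h hD)
    (fun j => adj (mform hB.sep hg j)) (isAnti_adjC hB.sep hg)
    (fun a => Subtype.ext (hB.adj_adj _)) (fun j a => rho_adjC hB.invol hB.sep hg j a)
    (c := algebraMap F _ c) (fun a => Algebra.commutes c a) (Subtype.ext ?_), card_ker_rhoR h hD]
  · simp only [(sepR_mform hB.invol hB.sep hg _).pres_iff]
  · change c • (1 : End F V) + adj B (c • 1) = 1
    rw [hB.sep.adj_smul_one, ← add_smul, hc, one_smul]

omit [Fintype F] in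
theorem card_pres_eq_isom (hB : SepR B) : Nat.card {s // Pres B s} = Nat.card (H31.isom B) := by
  refine (Nat.card_eq_of_bijective (fun e : H31.isom B => (⟨e.1, e.2⟩ : {s // Pres B s}))
    ⟨fun a b h => Subtype.ext (LinearEquiv.toLinearMap_injective (congrArg Subtype.val h)),
      fun s => ?_⟩).symm
  exact ⟨⟨LinearEquiv.ofBijective s.1 ((Module.End.isUnit_iff _).1 (hB.isUnit_of_pres s.2)), s.2⟩,
    rfl⟩

variable {q : ℕ}

theorem IsEForm.card_pres (hF : Fintype.card F = q ^ 2) (hσ : ∀ x, σ x = x ^ q)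
    (hB : IsEForm ε B) : Nat.card {s // Pres B s} = H31.ordGU q (finrank F V) := by
  have hi := H31.isInvol_of_pow hF hσ
  obtain ⟨b, hb, hb'⟩ := hi.exists_div_eq hB.eps
  have hb2 : σ b ≠ 0 := (map_ne_zero σ).2 hb
  have h1 : IsEForm 1 (σ b • B) := ⟨hB.invol, by simp, fun v w => by
      simp only [LinearMap.smul_apply, smul_eq_mul, map_mul, hB.invol, hB.symm v w, hb']
      field_simp,
    fun w hw => hB.sep w fun v => by simpa [hb] using hw v⟩
  rw [← (h1.isHerm hi.ne_id).card_isom hF hσ, ← card_pres_eq_isom h1.sep]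
  exact Nat.card_congr (Equiv.subtypeEquivRight fun s => by simp [Pres, hb])

/-- The order of the centraliser of a unipotent element of a unitary group. -/
theorem card_cent_unitary (hF : Fintype.card F = q ^ 2) (hσ : ∀ x, σ x = x ^ q)
    (hB : IsEForm ε B) (hg : Pres B g) (h : ed g = m.map fun e => (X - 1, e))
    (hD : ∀ e ∈ m, e ≤ D) : Nat.card {x // Commute x g ∧ Pres B x} =
      q ^ gam m.count (D + 1) * ∏ i ∈ Finset.range (D + 1), H31.ordGU q (m.count i) := by
  have : Finite (End F V) := finite_end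
  have hi := H31.isInvol_of_pow hF hσ
  obtain ⟨c, hc⟩ := hi.exists_trace_eq (map_one σ)
  obtain ⟨θ, hθ⟩ := hi.ne_id
  have h0 : m.count 0 = 0 := Multiset.count_eq_zero_of_notMem fun h' => (pos_of_ed_unip h h').false
  have h1 := card_pres_cent hB hg hc h hD
  have h2 := card_sym_sq_pi (S := fun j : Fin D => End F (MM (g - 1) j)) (rhoR (g - 1) D)
    (isAnti_adjC hB.sep hg) (fun a => Subtype.ext (hB.adj_adj _))
    (fun j a ha => (rho_adjC hB.invol hB.sep hg j a).trans (by
      rw [show rho (g - 1) j a = 0 from ha, (sepR_mform hB.invol hB.sep hg j).isAnti.zero]))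
    (θ := algebraMap F _ θ) (fun a => Algebra.commutes θ a) (by
      have : algebraMap F _ θ - adjC hB.sep hg (algebraMap F _ θ) = algebraMap F _ (θ - σ θ) := by
        refine Subtype.ext ?_
        change θ • (1 : End F V) - adj B (θ • 1) = (θ - σ θ) • 1
        rw [hB.sep.adj_smul_one, sub_smul]
      rw [this]
      exact (sub_ne_zero.2 hθ.symm).isUnit.map _)
  rw [card_ker_rhoR h hD, hF, ← pow_mul, mul_comm 2, pow_mul, pow_left_inj₀ (by positivity)
    (by positivity) two_ne_zero] at h2
  have hq := H31.two_le_of_card_sq hF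
  rw [← h2, hF, ← pow_mul, two_mul, pow_add, mul_right_comm] at h1
  rw [Nat.eq_of_mul_eq_mul_right (by positivity) h1, Finset.prod_range_succ', h0, H31.ordGU_zero,
    mul_one, ← Fin.prod_univ_eq_prod_range (fun i => H31.ordGU q (m.count (i + 1)))]
  congr 1
  exact Finset.prod_congr rfl fun j _ => by
    rw [(isEForm_mform hB hg j).card_pres hF hσ, finrank_MM_unip h]

theorem ordGU_int (hq : 1 ≤ q) (n : ℕ) : (H31.ordGU q n : ℤ) = (q : ℤ) ^ (n * (n - 1) / 2) *
    ∏ j : Fin n, ((q : ℤ) ^ ((j : ℕ) + 1) - (-1) ^ ((j : ℕ) + 1)) := by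
  rw [H31.ordGU, Fin.prod_univ_eq_prod_range (fun j => (q : ℤ) ^ (j + 1) - (-1) ^ (j + 1))]
  push_cast
  congr 1
  refine Finset.prod_congr rfl fun i _ => ?_
  split_ifs with h
  · rw [h.add_one.neg_one_pow]; ring
  · rw [(Nat.not_even_iff_odd.1 h).add_one.neg_one_pow, Nat.cast_sub (Nat.one_le_pow _ _ hq)]
    simp

end Form

section Matrices
variable {F : Type u} [Field F] {n : Type v} [Fintype n] [DecidableEq n]

theorem commute_toLin'_iff {A B : Matrix n n F} :
    Commute (Matrix.toLin' A : End F (n → F)) (Matrix.toLin' B) ↔ A * B = B * A := by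
  rw [Commute, SemiconjBy, Module.End.mul_eq_comp, Module.End.mul_eq_comp, ← Matrix.toLin'_mul,
    ← Matrix.toLin'_mul, Matrix.toLin'.injective.eq_iff]

theorem card_gl_commute (A : Matrix n n F) (P : End F (n → F) → Prop) :
    Nat.card {x : GL n F // (x : Matrix n n F) * A = A * x ∧ P (Matrix.toLin' (x : Matrix n n F))} =
      Nat.card {x : End F (n → F) // IsUnit x ∧ Commute x (Matrix.toLin' A) ∧ P x} := by
  refine Nat.card_eq_of_bijective (fun x => ⟨Matrix.toLin' (x.1 : Matrix n n F),
    x.1.isUnit.map Matrix.toLinAlgEquiv', commute_toLin'_iff.2 x.2.1, x.2.2⟩) ⟨fun a b h =>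
      Subtype.ext (Units.ext (Matrix.toLin'.injective (congrArg Subtype.val h))), ?_⟩
  rintro ⟨x, h1, h2, h3⟩
  obtain ⟨y, rfl⟩ := Matrix.toLin'.surjective x
  obtain ⟨u, rfl⟩ : IsUnit y := by simpa using h1.map Matrix.toLinAlgEquiv'.symm
  exact ⟨⟨u, commute_toLin'_iff.1 h2, h3⟩, rfl⟩

theorem card_gl_commute_unip [Fintype F] {A : Matrix n n F} {m : Multiset ℕ} {D : ℕ}
    (h : med A = m.map fun e => (X - 1, e)) (hD : ∀ e ∈ m, e ≤ D) :
    Nat.card {x : GL n F // (x : Matrix n n F) * A = A * x} =
      Fintype.card F ^ gam m.count (D + 1) * ∏ i ∈ Finset.range (D + 1), ∏ j : Fin (m.count i),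
        (Fintype.card F ^ m.count i - Fintype.card F ^ (j : ℕ)) := by
  have : Finite (End F (n → F)) := finite_end
  have h1 := card_gl_commute A fun _ => True
  simp only [and_true] at h1
  rw [h1, ← card_units_cent h hD, card_units_eq]
  exact Nat.card_congr
    { toFun x := ⟨⟨x.1, mem_cent.2 (x.2.2.sub_right (Commute.one_right _))⟩,
        isUnit_subring_of_finite (Subalgebra.centralizer F {Matrix.toLin' A - 1}).toSubring x.2.1⟩
      invFun x := ⟨x.1.1, x.2.map (Subalgebra.val _), commute_of_mem_cent x.1.2⟩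
      left_inv _ := rfl
      right_inv _ := rfl }

theorem card_gl_commute_pres {σ : F →+* F} {B : (n → F) →ₛₗ[σ] (n → F) →ₗ[F] F} (hB : SepR B)
    (A : Matrix n n F) : Nat.card {x : GL n F // (x : Matrix n n F) * A = A * x ∧
      Pres B (Matrix.toLin' (x : Matrix n n F))} =
      Nat.card {x : End F (n → F) // Commute x (Matrix.toLin' A) ∧ Pres B x} := by
  rw [card_gl_commute]
  exact Nat.card_congr (Equiv.subtypeEquivRight fun x =>
    ⟨fun h => h.2, fun h => ⟨hB.isUnit_of_pres h.2, h⟩⟩)

end Matrices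

theorem count_univ_map {t : ℕ} (d : Fin t → ℕ) (i : ℕ) :
    (Finset.univ.val.map d).count i = (Finset.univ.filter fun k => d k = i).card := by
  rw [Multiset.count_map]
  simp only [eq_comm (a := i)]
  rfl

end Cfsg.Agent.H76
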