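import Cfsg.Agent.H76.Cent
import Cfsg.Agent.H76.FConj

set_option autoImplicit false

namespace Cfsg.Agent.H76

universe u v w

open Module Polynomial

section
variable {F : Type u} [Field F] [Fintype F] {V : Type v} [AddCommGroup V] [Module F V]
  [FiniteDimensional F V] {B : V →ₗ[F] V →ₗ[F] F}

/-- The centraliser of a fixed-point-free symplectic element of order three, `q ≡ 2 mod 3`. -/
theorem card_cent_order_three (hr : ∀ r : F, r ^ 2 ≠ -1 + -1 * r) (hB : IsEForm (-1) B)
    {x : End F V} (hx : Pres B x) (h3 : x * x = (-1 : F) • 1 + (-1 : F) • x) {m : ℕ}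
    (hm : finrank F V = 2 * m) :
    Nat.card {y // Commute y x ∧ Pres B y} = H31.ordGU (Fintype.card F) m := by
  have := Fact.mk hr
  let K := QuadraticAlgebra F (-1) (-1)
  let ψ : K →ₐ[F] End F V := QuadraticAlgebra.lift ⟨x, h3⟩
  let _ : Module K V := Module.compHom V ψ.toRingHom
  have hs : ∀ (c : K) (v : V), c • v = c.re • v + c.im • x v := fun c v => rfl
  have : IsScalarTower F K V := ⟨fun a c v => by simp [hs, mul_smul, K]⟩
  have : Finite K := Module.finite_of_finite F
  have := Fintype.ofFinite K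
  have : FiniteDimensional K V := Module.Finite.of_restrictScalars_finite F K V
  have hxx : ∀ v, x (x v) = -v - x v := fun v => by
    simpa [sub_eq_add_neg] using LinearMap.congr_fun h3 v
  have hB1 : ∀ v w, B (x v) w = -B v w - B v (x w) := fun v w => by
    have := hx v (x (x w))
    rw [hxx (x w), hxx w] at this
    simp only [map_sub, map_neg] at this
    linear_combination this
  have hsy : ∀ v w, B w v = -B v w := fun v w => by simpa using hB.symm v w
  let h : V →ₛₗ[starRingEnd K] V →ₗ[K] K := LinearMap.mk₂'ₛₗ _ _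
    (fun v w => ⟨B v w + B v (x w), B v w⟩)
    (fun v v' w => by ext <;> simp [K]; ring)
    (fun c v w => by ext <;> simp [hs, hB1, hxx, K, starRingEnd_apply] <;> ring)
    (fun v w w' => by ext <;> simp [K]; ring)
    (fun c v w => by ext <;> simp [hs, hxx, K] <;> ring)
  have hh : ∀ v w, h v w = ⟨B v w + B v (x w), B v w⟩ := fun _ _ => rfl
  have hi : H31.IsInvol (starRingEnd K) := ⟨star_star, ⟨0, 1⟩, fun e => by
    have := congrArg QuadraticAlgebra.re e
    simp [K, starRingEnd_apply] at this⟩
  have hE : IsEForm 1 h := ⟨star_star, by simp, fun v w => by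
      ext
      · simp [hh, K, hsy v w, hsy (x v) w, hB1, starRingEnd_apply]
      · simp [hh, K, hsy v w, starRingEnd_apply],
    fun w hw => hB.sep w fun v => congrArg QuadraticAlgebra.im (hw v)⟩
  obtain ⟨q, hq, hσ⟩ := hi.exists_q
  have hK : finrank F K = 2 := QuadraticAlgebra.finrank_eq_two _ _
  obtain rfl : q = Fintype.card F := by
    rw [Module.card_eq_pow_finrank (K := F), hK] at hq
    exact (Nat.pow_left_injective two_ne_zero hq).symm
  have hd : finrank K V = m := by
    have := Module.finrank_mul_finrank F K V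
    rw [hK, hm] at this
    omega
  rw [← hd, ← hE.card_pres hq hσ]
  have hω : ∀ v, (QuadraticAlgebra.omega : K) • v = x v := fun v => by simp [hs]
  exact Nat.card_congr
    { toFun y := ⟨{ toFun := y.1, map_add' := y.1.map_add
                    map_smul' c v := by simp [hs, comm_apply y.2.1] },
        fun v w => by simp [hh, ← comm_apply y.2.1, y.2.2 v]⟩
      invFun z := ⟨z.1.restrictScalars F, LinearMap.ext fun v => by simp [← hω],
        fun v w => congrArg QuadraticAlgebra.im (z.2 v w)⟩
      left_inv _ := rfl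
      right_inv _ := rfl }

omit [FiniteDimensional F V] in
theorem card_pres_of_finrank_one (h2 : (2 : F) ≠ 0) (hB : SepR B) (h1 : finrank F V = 1) :
    Nat.card {s // Pres B s} = 2 := by
  obtain ⟨v, hv, hv'⟩ := finrank_eq_one_iff'.1 h1
  have hvv : B v v ≠ 0 := fun h => hv (hB v fun w => by
    obtain ⟨c, rfl⟩ := hv' w
    simp [h])
  rw [Nat.card_eq_two_iff]
  refine ⟨⟨1, Pres.one⟩, ⟨-1, Pres.one.neg⟩, fun h => hv ?_, Set.eq_univ_of_forall fun s => ?_⟩
  · have h3 : v = -v := LinearMap.congr_fun (congrArg Subtype.val h) v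
    have : (2 : F) • v = 0 := by rw [two_smul]; exact eq_neg_iff_add_eq_zero.1 h3
    exact (smul_eq_zero.1 this).resolve_left h2
  · obtain ⟨c, hc⟩ := hv' (s.1 v)
    have h3 := s.2 v v
    rw [← hc] at h3
    have h4 : c * c = 1 := mul_right_cancel₀ hvv (by simpa [mul_assoc] using h3)
    rcases mul_self_eq_one_iff.1 h4 with rfl | rfl
    · refine Or.inl (Subtype.ext (LinearMap.ext fun w => ?_))
      obtain ⟨a, rfl⟩ := hv' w
      simp [← hc]
    · refine Or.inr (Subtype.ext (LinearMap.ext fun w => ?_))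
      obtain ⟨a, rfl⟩ := hv' w
      simp [← hc]

theorem card_vanish (m : ℕ) (hm : 1 ≤ m) :
    Nat.card {a : Fin (2 * m) → F // ∀ i : Fin (2 * m), (i : ℕ) = 0 ∨ Odd (i : ℕ) → a i = 0} =
      Fintype.card F ^ (m - 1) := by
  rw [← Nat.card_eq_fintype_card, ← Nat.card_fin (m - 1), ← Nat.card_fun]
  refine Nat.card_eq_of_bijective (fun a j => a.1 ⟨2 * (j + 1), by omega⟩) ⟨fun a b h => ?_, fun c => ?_⟩
  · refine Subtype.ext (funext fun i => ?_)
    by_cases hi : (i : ℕ) = 0 ∨ Odd (i : ℕ)
    · rw [a.2 i hi, b.2 i hi]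
    · rw [Nat.odd_iff] at hi
      have := congrFun h ⟨i / 2 - 1, by omega⟩
      simp only at this
      convert this <;> omega
  · refine ⟨⟨fun i => if h : (i : ℕ) = 0 ∨ Odd (i : ℕ) then 0 else
      c ⟨i / 2 - 1, by rw [Nat.odd_iff] at h; omega⟩, fun i hi => dif_pos hi⟩, funext fun j => ?_⟩
    simp only
    rw [dif_neg (by simp)]
    congr 1
    ext
    simp

/-- The centraliser of a regular unipotent symplectic element in odd characteristic. -/
theorem card_cent_regular (h2 : (2 : F) ≠ 0) (hB : IsEForm (-1) B) {g : End F V} (hg : Pres B g)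
    {m : ℕ} (hm : 1 ≤ m) (h : ed g = {(X - 1, 2 * m)}) :
    Nat.card {y // Commute y g ∧ Pres B y} = 2 * Fintype.card F ^ m := by
  have h' : ed g = ({2 * m} : Multiset ℕ).map fun e => (X - 1, e) := by simpa using h
  have hD : ∀ e ∈ ({2 * m} : Multiset ℕ), e ≤ 2 * m := by simp
  have hγ : gam ({2 * m} : Multiset ℕ).count (2 * m + 1) = 2 * m - 1 := by
    rw [gam, Finset.sum_eq_zero, Finset.sum_eq_single (2 * m)] <;>
      simp +contextual [Multiset.count_singleton]
    omega
  have hfr : finrank F (Subalgebra.centralizer F {g - 1}) = 2 * m := by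
    rw [finrank_cent_unip h' hD, hγ, Finset.sum_eq_single (2 * m)] <;>
      simp +contextual
    omega
  have h1 := card_pres_cent hB hg (c := 2⁻¹) (by simp; field_simp; norm_num) h' hD
  have hM : ∀ j : Fin (2 * m), finrank F (MM (g - 1) j) = if (j : ℕ) + 1 = 2 * m then 1 else 0 :=
    fun j => by rw [finrank_MM_unip h', Multiset.count_singleton]
  let j₀ : Fin (2 * m) := ⟨2 * m - 1, by omega⟩
  have hj₀ : finrank F (MM (g - 1) j₀) = 1 := by rw [hM, if_pos (by simp [j₀]; omega)]
  rw [hγ, Finset.prod_eq_single j₀ (fun j _ hj => ?_) (by simp),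
    card_pres_of_finrank_one h2 (sepR_mform hB.invol hB.sep hg _) hj₀] at h1
  swap
  · have : Subsingleton (MM (g - 1) j) := by
      rw [← Module.finrank_zero_iff (R := F), hM, if_neg fun e => hj (Fin.ext (by simp [j₀]; omega))]
    rw [Nat.card_eq_one_iff_unique]
    exact ⟨inferInstance, ⟨⟨1, Pres.one⟩⟩⟩
  -- the skew element `s = g - g⁻¹`
  have hN : ∀ k, (g - 1) ^ k = 0 ↔ 2 * m ≤ k := fun k => by
    have := (hasED_ed g).aeval_eq_zero_iff ((X - 1) ^ k)
    rw [h] at this
    simp only [map_pow, map_sub, aeval_X, map_one, Multiset.mem_singleton, forall_eq] at this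
    rw [this, pow_dvd_pow_iff (X_sub_C_ne_zero 1) (not_isUnit_X_sub_C 1)]
  have hu : IsUnit (adj B g * (g + 1)) := by
    refine (hB.sep.isUnit_of_pres (hB.sep.pres_adj hg)).mul ?_
    have : g + 1 = (g - 1) + (2 : F) • 1 := by rw [two_smul]; abel
    rw [this]
    exact IsNilpotent.isUnit_add_right_of_commute ⟨_, (hN _).2 le_rfl⟩
      (by rw [← Algebra.algebraMap_eq_smul_one]; exact h2.isUnit.map _)
      ((Commute.one_right _).smul_right _)
  have hc1 : Commute (adj B g) g := (hB.sep.commute_adj hg (Commute.refl g)).symm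
  have hc2 : Commute (adj B g * (g + 1)) (g - 1) :=
    ((hc1.mul_left ((Commute.refl g).add_left (Commute.one_left g))).sub_right
      (Commute.one_right _))
  have hs0 : g - adj B g = adj B g * (g + 1) * (g - 1) := by
    simp only [mul_add, mul_sub, add_mul, mul_one, hB.sep.adj_mul_self hg, one_mul]
    abel
  let s : Subalgebra.centralizer F {g - 1} := ⟨g - adj B g, mem_cent.2
    (((Commute.refl g).sub_left hc1).sub_right (Commute.one_right _))⟩
  have hs : ∀ k, s ^ k = 0 ↔ 2 * m ≤ k := fun k => by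
    rw [← hN, Subtype.ext_iff]
    change (g - adj B g) ^ k = 0 ↔ _
    rw [hs0, hc2.mul_pow, (hu.pow k).mul_right_eq_zero]
  have hτ : ∀ k, adjC hB.sep hg (s ^ k) = (-1 : F) ^ k • s ^ k := fun k => by
    have : adjC hB.sep hg s = (-1 : F) • s := Subtype.ext (by
      change adj B (g - adj B g) = (-1 : F) • (g - adj B g)
      rw [hB.sep.isAnti.sub, hB.adj_adj, neg_one_smul, neg_sub])
    rw [(isAnti_adjC hB.sep hg).pow, this, _root_.smul_pow]
  have hρ : ∀ j, rho (g - 1) j s = 0 := fun j => (rho_eq_zero_iff s).2 fun w hw =>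
    ⟨(adj B g * (g + 1)) w, by
      change _ = ((g - 1) ^ j) ((g - adj B g) w)
      rw [hs0, hc2.eq, pow_succ]; rfl⟩
  have hdeg : (minpoly F s).natDegree = 2 * m := by
    obtain ⟨i, hi, ha⟩ := (dvd_prime_pow prime_X _).1
      (minpoly.dvd F s (p := X ^ (2 * m)) (by simpa using (hs _).2 le_rfl))
    have h3 : s ^ i = 0 := by
      simpa using aeval_eq_zero_of_dvd_aeval_eq_zero ha.dvd (minpoly.aeval F s)
    rw [natDegree_eq_of_degree_eq (degree_eq_degree_of_associated ha), natDegree_X_pow]
    exact le_antisymm hi ((hs i).1 h3)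
  have hli : LinearIndependent F fun i : Fin (2 * m) => s ^ (i : ℕ) :=
    hdeg ▸ linearIndependent_pow s
  have : Nonempty (Fin (2 * m)) := ⟨j₀⟩
  let b := basisOfLinearIndependentOfCardEqFinrank hli (by simp [hfr])
  have hb : ∀ a, b.equivFun.symm a = ∑ i, a i • s ^ (i : ℕ) := fun a => by simp [b]
  have h4 : Nat.card {x // (∀ j, rhoR (g - 1) (2 * m) j x = 0) ∧ adjC hB.sep hg x = x} =
      Fintype.card F ^ (m - 1) := by
    rw [← card_vanish m hm]
    refine (Nat.card_congr (b.equivFun.symm.toEquiv.subtypeEquiv fun a => ?_)).symm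
    have e1 : ∀ j, rho (g - 1) j (b.equivFun.symm a) = a ⟨0, by omega⟩ • 1 := fun j => by
      rw [hb, map_sum, Finset.sum_eq_single ⟨0, by omega⟩ (fun i _ hi => ?_) (by simp)]
      · simp
      · rw [map_smul, map_pow, hρ, zero_pow fun e => hi (Fin.ext e), smul_zero]
    have e2 : adjC hB.sep hg (b.equivFun.symm a) =
        b.equivFun.symm fun i => (-1) ^ (i : ℕ) * a i := by
      let T : Subalgebra.centralizer F {g - 1} →ₗ[F] Subalgebra.centralizer F {g - 1} :=
        { toFun := adjC hB.sep hg, map_add' := (isAnti_adjC hB.sep hg).add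
          map_smul' c x := Subtype.ext (hB.sep.adj_smul c x) }
      change T _ = _
      rw [hb, hb, map_sum]
      refine Finset.sum_congr rfl fun i _ => ?_
      rw [map_smul, show T (s ^ (i : ℕ)) = _ from hτ i, smul_smul, mul_comm]
    change _ ↔ (∀ j : Fin (2 * m), rho (g - 1) j (b.equivFun.symm a) = 0) ∧
      adjC hB.sep hg (b.equivFun.symm a) = b.equivFun.symm a
    simp only [e1, e2, EmbeddingLike.apply_eq_iff_eq, funext_iff]
    constructor
    · intro ha
      refine ⟨fun j => by rw [ha _ (Or.inl rfl), zero_smul], fun i => ?_⟩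
      rcases Nat.even_or_odd i with hi | hi
      · rw [hi.neg_one_pow, one_mul]
      · rw [ha i (Or.inr hi), mul_zero]
    · rintro ⟨h5, h6⟩ i (hi | hi)
      · have : Nontrivial (MM (g - 1) j₀) := Module.nontrivial_of_finrank_pos (R := F) (by omega)
        rw [show i = ⟨0, by omega⟩ from Fin.ext hi]
        exact (smul_eq_zero.1 (h5 j₀)).resolve_right one_ne_zero
      · have := h6 i
        rw [hi.neg_one_pow] at this
        exact (mul_eq_zero.1 (show 2 * a i = 0 by linear_combination -this)).resolve_left h2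
  rw [h4, show 2 * m - 1 = m + (m - 1) by omega, pow_add] at h1
  exact Nat.eq_of_mul_eq_mul_right (pow_pos Fintype.card_pos (m - 1)) (by rw [h1]; ring)

end

theorem card_centralizer_sp {F : Type u} [Field F] {m : ℕ} (u : Matrix.symplecticGroup (Fin m) F) :
    Nat.card (Subgroup.centralizer ({u} : Set (Matrix.symplecticGroup (Fin m) F))) =
      Nat.card {y : End F (Fin m ⊕ Fin m → F) // Commute y (Matrix.toLin' u.1) ∧
        Pres (H27.jBilin (Fin m) F) y} := by
  rw [← card_gl_commute_pres (isEForm_jBilin _).sep]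
  exact Nat.card_congr
    { toFun x := ⟨H27.spToGL m F x.1, congrArg Subtype.val
        (Subgroup.mem_centralizer_singleton_iff.1 x.2), pres_sp _⟩
      invFun x := ⟨⟨x.1, (H27.mem_sp_iff _).2 x.2.2⟩,
        Subgroup.mem_centralizer_singleton_iff.2 (Subtype.ext x.2.1)⟩
      left_inv _ := rfl
      right_inv _ := Subtype.ext (Units.ext rfl) }

end Cfsg.Agent.H76
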