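import Mathlib

/-!
# Powers in finite cyclic groups and finite fields
-/

set_option autoImplicit false

namespace Cfsg.Agent.H76

theorem range_powMonoidHom_eq_ker {G : Type*} [CommGroup G] [IsCyclic G] [Finite G] (n : ℕ) :
    (powMonoidHom n : G →* G).range =
      (powMonoidHom (Nat.card G / (Nat.card G).gcd n) : G →* G).ker := by
  apply Subgroup.eq_of_le_of_card_ge
  · rintro _ ⟨y, rfl⟩
    rw [MonoidHom.mem_ker, powMonoidHom_apply, powMonoidHom_apply, ← pow_mul,
      ← orderOf_dvd_iff_pow_eq_one]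
    refine (orderOf_dvd_natCard y).trans ?_
    rw [← Nat.mul_div_assoc _ (Nat.gcd_dvd_left _ _), mul_comm,
      Nat.mul_div_assoc _ (Nat.gcd_dvd_right _ _)]
    exact Nat.dvd_mul_right _ _
  · rw [IsCyclic.card_powMonoidHom_range, IsCyclic.card_powMonoidHom_ker]
    exact Nat.gcd_le_right _ (Nat.div_pos (Nat.gcd_le_left _ Nat.card_pos)
      (Nat.gcd_pos_of_pos_left _ Nat.card_pos))

theorem exists_pow_eq_iff {G : Type*} [CommGroup G] [IsCyclic G] [Finite G] (n : ℕ) (x : G) :
    (∃ y, y ^ n = x) ↔ orderOf x ∣ Nat.card G / (Nat.card G).gcd n := by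
  rw [orderOf_dvd_iff_pow_eq_one]
  exact SetLike.ext_iff.1 (range_powMonoidHom_eq_ker n) x

/-- In a finite field with `q` elements, a non-zero `x` is an `n`-th power iff its order divides
`(q - 1) / gcd (q - 1, n)`. -/
theorem exists_pow_eq_iff_field {F : Type*} [Field F] [Fintype F] (n : ℕ) {x : F} (hx : x ≠ 0) :
    (∃ y : F, y ≠ 0 ∧ y ^ n = x) ↔
      orderOf x ∣ (Fintype.card F - 1) / (Fintype.card F - 1).gcd n := by
  have := exists_pow_eq_iff n (Units.mk0 x hx)
  rw [Nat.card_units, Nat.card_eq_fintype_card, ← orderOf_units, Units.val_mk0] at this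
  rw [← this]
  constructor
  · rintro ⟨y, hy, h⟩
    exact ⟨Units.mk0 y hy, Units.ext (by simpa using h)⟩
  · rintro ⟨y, h⟩
    exact ⟨y, y.ne_zero, by simpa using congrArg Units.val h⟩

theorem padicValNat_div_gcd (p : ℕ) [hp : Fact p.Prime] {a b : ℕ} (ha : a ≠ 0) (hb : b ≠ 0) :
    padicValNat p (a / a.gcd b) = padicValNat p a - padicValNat p b := by
  rw [padicValNat.div_of_dvd (Nat.gcd_dvd_left a b), ← Nat.factorization_def _ hp.out,
    ← Nat.factorization_def _ hp.out, ← Nat.factorization_def _ hp.out,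
    Nat.factorization_gcd ha hb, Finsupp.inf_apply]
  omega

end Cfsg.Agent.H76
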