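import Cfsg.Agent.H97.JmDefs
import Cfsg.Agent.H33.J4Odd1
import Cfsg.Agent.H3.Cores

/-!
# The case of a quaternion intersection with the extraspecial subgroup
-/

set_option autoImplicit false

namespace Cfsg.Agent.H97.JM

open Subgroup

universe u

namespace EE

theorem num (f : ℕ) (h1 : f ∣ 8064) (h2 : f ∣ 688128) (h3 : f % 11 = 1) (h4 : 16 ∣ f) :
    7 ∣ f := by
  have h5 : f ∣ 2688 := by
    have := Nat.dvd_gcd h1 h2
    norm_num at this
    exact this
  obtain ⟨g, rfl⟩ := h4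
  have h6 : g ∣ 168 := by
    have : 16 * g ∣ 16 * 168 := h5
    exact Nat.dvd_of_mul_dvd_mul_left (by norm_num) this
  have h7 : g ≤ 168 := Nat.le_of_dvd (by norm_num) h6
  have key : ∀ g : ℕ, g < 169 → 168 % g = 0 → 16 * g % 11 = 1 → 16 * g % 7 = 0 := by
    decide +kernel
  exact Nat.dvd_of_mod_eq_zero (key g (by omega) (Nat.mod_eq_zero_of_dvd h6) h3)

end EE

theorem pEE (hFIX : FIX.{u}) : EE.{u} := by
  intro G _ _ hG z x Q U hZ H B f hD hf11 hfd hX hinv hB hzB hB2 hB6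
  have hzz : z ≠ 1 := by
    intro h
    have := hZ.z2
    rw [h, orderOf_one] at this
    omega
  have hzH : z ∈ H := (hB hzB).1
  have hzX : z ∈ H ⊓ Q := ⟨hzH, hZ.zQ⟩
  -- `D` normalizes `X`
  have hDX : H ⊓ centralizer ({z} : Set G) ≤ normalizer ((H ⊓ Q : Subgroup G) : Set G) := by
    intro d hd
    refine H33.J4O.mem_norm_of fun a ha => ⟨?_, H33.J4O.norm_mem (hZ.Qn hd.2) ha.2⟩
    exact H.mul_mem (H.mul_mem hd.1 ha.1) (H.inv_mem hd.1)
  have hXD : H ⊓ Q ≤ H ⊓ centralizer ({z} : Set G) := inf_le_inf_left _ hZ.Qle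
  -- first bound
  have h1 : f ∣ 8064 := by
    have hn : H ⊓ centralizer ({z} : Set G) ≤ normalizer (Q : Set G) := inf_le_right.trans hZ.Qn
    have e := H3.card_sup_mul_card_inf_of_le_normalizer hn
    have e2 : H ⊓ centralizer ({z} : Set G) ⊓ Q = H ⊓ Q := by
      rw [inf_assoc, inf_eq_right.mpr hZ.Qle]
    rw [e2, hX, hD, hZ.Qc] at e
    have e3 : Nat.card ↥(H ⊓ centralizer ({z} : Set G) ⊔ Q) ∣ 21799895040 := by
      rw [← hZ.cz]
      exact card_dvd_of_le (sup_le inf_le_right hZ.Qle)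
    have e4 : Nat.card ↥(H ⊓ centralizer ({z} : Set G) ⊔ Q) = 2703360 * f := by omega
    rw [e4] at e3
    have : 2703360 * f ∣ 2703360 * 8064 := e3
    exact Nat.dvd_of_mul_dvd_mul_left (by norm_num) this
  -- the two-part
  have h4 : 16 ∣ f := by
    have e := H3.card_sup_mul_card_inf_of_le_normalizer (hB.trans hDX)
    have e2 : B ⊓ (H ⊓ Q) = zpowers z := by
      apply le_antisymm
      · intro v hv
        rcases hinv v hv.2 (hB2 v hv.1) with rfl | rfl
        · exact one_mem _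
        · exact mem_zpowers _
      · rw [zpowers_le]
        exact ⟨hzB, hzX⟩
    rw [e2, Nat.card_zpowers, hZ.z2, hX] at e
    have e3 : Nat.card ↥(B ⊔ H ⊓ Q) ∣ 2640 * f := by
      rw [← hD]
      exact card_dvd_of_le (sup_le hB hXD)
    obtain ⟨k, hk⟩ := hB6
    have e4 : 256 ∣ Nat.card ↥(B ⊔ H ⊓ Q) := ⟨k, by omega⟩
    have e5 : 16 * 16 ∣ 16 * (165 * f) := by
      have := e4.trans e3
      rw [show 16 * (165 * f) = 2640 * f by ring]
      exact this
    have e6 : 16 ∣ 165 * f := Nat.dvd_of_mul_dvd_mul_left (by norm_num) e5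
    exact (Nat.Coprime.dvd_mul_left (by norm_num)).mp e6
  have h7 : 7 ∣ Nat.card ↥(H ⊓ centralizer ({z} : Set G)) := by
    rw [hD]
    exact (EE.num f h1 hfd hf11 h4).mul_left _
  obtain ⟨s, hs, hs7⟩ := H33.J4O.exists_ord (by norm_num : Nat.Prime 7) h7
  have hfix := hFIX G (H ⊓ Q) 7 s (by norm_num) hs7 (hDX hs)
  rw [hX] at hfix
  have hdv : Nat.card ↥(H ⊓ Q ⊓ centralizer ({s} : Set G)) ∣ 8 := by
    rw [← hX]
    exact card_dvd_of_le inf_le_left
  have h2 : 2 ∣ Nat.card ↥(H ⊓ Q ⊓ centralizer ({s} : Set G)) := by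
    rw [← hZ.z2]
    refine H33.J4O.ord_dvd ⟨hzX, ?_⟩
    exact H33.J4O.mcs.mpr (H33.J4O.mcs.mp hs.2).symm
  have h8 : Nat.card ↥(H ⊓ Q ⊓ centralizer ({s} : Set G)) = 8 := by
    have := Nat.le_of_dvd (by norm_num) hdv
    omega
  have hle : H ⊓ Q ≤ centralizer ({s} : Set G) := by
    have : H ⊓ Q ⊓ centralizer ({s} : Set G) = H ⊓ Q :=
      eq_of_le_of_card_ge inf_le_left (by rw [h8, hX])
    rw [← this]
    exact inf_le_right
  obtain ⟨b, hb, c, hc, hbc, hb2, hc2⟩ := hG.k7 s hs7 (H ⊓ Q) hle hX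
  have hz : ∀ v ∈ H ⊓ Q, orderOf v = 2 → v = z := by
    intro v hv h
    rcases hinv v hv (by rw [← pow_two, ← h, pow_orderOf_eq_one]) with h' | h'
    · rw [h', orderOf_one] at h
      omega
    · exact h'
  exact hbc ((hz b hb hb2).trans (hz c hc hc2).symm)

end Cfsg.Agent.H97.JM
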