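import Cfsg.Agent.H97.JnDefs
import Cfsg.Agent.H17.PGLPres
import Cfsg.Agent.H15.Even2

/-!
# A presentation of `L₂(32)`
-/

set_option autoImplicit false

namespace Cfsg.Agent.H97.JM

open Subgroup
open scoped MatrixGroups

universe u

namespace B32

open Polynomial in
theorem exists_root (F : Type) [Field F] [Finite F] [CharP F 2] (hF : Nat.card F = 32) :
    ∃ α : F, α ^ 5 = α ^ 2 + 1 := by
  have hs : Splits (X ^ 32 - X : F[X]) := by
    have := Polynomial.splits_X_pow_nat_card_sub_X (K := F)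
    rwa [hF] at this
  have h2 : (2 : F[X]) = 0 := CharTwo.two_eq_zero
  have hd : (X ^ 5 + X ^ 2 + 1 : F[X]) ∣ X ^ 32 - X :=
    ⟨X ^ 1 + X ^ 3 + X ^ 5 + X ^ 6 + X ^ 7 + X ^ 9 + X ^ 10 + X ^ 14 + X ^ 15 + X ^ 16 + X ^ 17 +
      X ^ 18 + X ^ 21 + X ^ 22 + X ^ 24 + X ^ 27, by
      linear_combination (-(X ^ 1 + X ^ 3 + X ^ 5 + X ^ 6 + X ^ 7 + X ^ 8 + X ^ 9 + X ^ 10 +
        X ^ 11 + X ^ 12 + X ^ 14 + X ^ 15 + X ^ 16 + X ^ 17 + X ^ 18 + X ^ 19 + X ^ 20 + X ^ 21 +
        X ^ 22 + X ^ 23 + X ^ 24 + X ^ 26 + X ^ 27 + X ^ 29)) * h2⟩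
  have hne : (X ^ 32 - X : F[X]) ≠ 0 := FiniteField.X_pow_card_sub_X_ne_zero F (by norm_num)
  have hdeg : (X ^ 5 + X ^ 2 + 1 : F[X]).degree = 5 := by compute_degree!
  obtain ⟨α, hα⟩ := (hs.of_dvd hne hd).exists_eval_eq_zero (by rw [hdeg]; norm_num)
  simp only [eval_add, eval_pow, eval_X, eval_one] at hα
  refine ⟨α, ?_⟩
  have h3 : (2 : F) = 0 := CharTwo.two_eq_zero
  linear_combination hα - (α ^ 2 + 1) * h3

abbrev V : Type := Fin 5 → ZMod 2

/-- Multiplication by the generator. -/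
def sh (c : V) : V := ![c 4, c 0, c 1 + c 4, c 2, c 3]

section Grp

variable {G : Type*} [Group G]

/-- The power of an involution. -/
def pw (x : G) (a : ZMod 2) : G := x ^ a.val

theorem pw_add {x : G} (hx : x * x = 1) (a b : ZMod 2) : pw x (a + b) = pw x a * pw x b := by
  have h : ∀ a : ZMod 2, a = 0 ∨ a = 1 := by decide
  have e0 : pw x 0 = 1 := pow_zero x
  have e1 : pw x 1 = x := pow_one x
  rcases h a with rfl | rfl <;> rcases h b with rfl | rfl
  · rw [add_zero, e0, mul_one]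
  · rw [zero_add, e0, one_mul]
  · rw [add_zero, e0, mul_one]
  · rw [show (1 + 1 : ZMod 2) = 0 from rfl, e0, e1, hx]

theorem pw_comm {x y : G} (h : Commute x y) (a b : ZMod 2) : Commute (pw x a) (pw y b) :=
  h.pow_pow _ _

theorem pw_mul {x y : G} (h : Commute x y) (a : ZMod 2) : pw (x * y) a = pw x a * pw y a :=
  h.mul_pow _

theorem pw_conj (g x : G) (a : ZMod 2) : g * pw x a * g⁻¹ = pw (g * x * g⁻¹) a := conj_pow.symm

/-- The product of powers. -/
def yy (x : ℕ → G) (c : V) : G :=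
  pw (x 0) (c 0) * (pw (x 1) (c 1) * (pw (x 2) (c 2) * (pw (x 3) (c 3) * pw (x 4) (c 4))))

theorem yy_add {x : ℕ → G} (hx : ∀ i, x i * x i = 1) (hc : ∀ i < 5, ∀ j < 5, Commute (x i) (x j))
    (c d : V) : yy x (c + d) = yy x c * yy x d := by
  have k : ∀ i < 5, ∀ j < 5, ∀ a b z, pw (x i) a * (pw (x j) b * z) = pw (x j) b * (pw (x i) a * z) :=
    fun i hi j hj a b z => (pw_comm (hc i hi j hj) a b).left_comm z
  simp only [yy, Pi.add_apply, pw_add (hx _), mul_assoc]
  congr 1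
  rw [k 4 (by norm_num) 0 (by norm_num), k 3 (by norm_num) 0 (by norm_num),
    k 2 (by norm_num) 0 (by norm_num), k 1 (by norm_num) 0 (by norm_num)]
  congr 2
  rw [k 4 (by norm_num) 1 (by norm_num), k 3 (by norm_num) 1 (by norm_num),
    k 2 (by norm_num) 1 (by norm_num)]
  congr 2
  rw [k 4 (by norm_num) 2 (by norm_num), k 3 (by norm_num) 2 (by norm_num)]
  congr 2
  rw [k 4 (by norm_num) 3 (by norm_num)]

theorem yy_conj {x : ℕ → G} (hx : ∀ i, x i * x i = 1) (hc : ∀ i < 5, ∀ j < 5, Commute (x i) (x j))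
    {H : G} (hH : ∀ i, H * x i * H⁻¹ = x (i + 1)) (h5 : x 5 = x 0 * x 2) (c : V) :
    H * yy x c * H⁻¹ = yy x (sh c) := by
  have k : ∀ i < 5, ∀ j < 5, ∀ a b z, pw (x i) a * (pw (x j) b * z) = pw (x j) b * (pw (x i) a * z) :=
    fun i hi j hj a b z => (pw_comm (hc i hi j hj) a b).left_comm z
  have e : H * yy x c * H⁻¹ = (H * pw (x 0) (c 0) * H⁻¹) * ((H * pw (x 1) (c 1) * H⁻¹) *
      ((H * pw (x 2) (c 2) * H⁻¹) * ((H * pw (x 3) (c 3) * H⁻¹) * (H * pw (x 4) (c 4) * H⁻¹)))) := by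
    rw [yy]; group
  rw [e]
  simp only [pw_conj, hH, zero_add, Nat.reduceAdd, h5]
  rw [pw_mul (hc 0 (by norm_num) 2 (by norm_num))]
  change _ = pw (x 0) (c 4) * (pw (x 1) (c 0) * (pw (x 2) (c 1 + c 4) *
    (pw (x 3) (c 2) * pw (x 4) (c 3))))
  rw [pw_add (hx _), mul_assoc (pw (x 2) (c 1)),
    k 4 (by norm_num) 0 (by norm_num), k 3 (by norm_num) 0 (by norm_num),
    k 2 (by norm_num) 0 (by norm_num), k 1 (by norm_num) 0 (by norm_num),
    (pw_comm (hc 4 (by norm_num) 2 (by norm_num)) _ _).eq, k 3 (by norm_num) 2 (by norm_num)]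

end Grp

section Fld

variable {F : Type} [Field F] [CharP F 2]

/-- Coordinates. -/
noncomputable def ev (α : F) (c : V) : F :=
  ZMod.castHom (dvd_refl 2) F (c 0) + ZMod.castHom (dvd_refl 2) F (c 1) * α +
    ZMod.castHom (dvd_refl 2) F (c 2) * α ^ 2 + ZMod.castHom (dvd_refl 2) F (c 3) * α ^ 3 +
    ZMod.castHom (dvd_refl 2) F (c 4) * α ^ 4

theorem ev_add (α : F) (c d : V) : ev α (c + d) = ev α c + ev α d := by
  simp only [ev, Pi.add_apply, map_add]; ring

theorem ev_sh {α : F} (h : α ^ 5 = α ^ 2 + 1) (c : V) : ev α (sh c) = α * ev α c := by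
  change ZMod.castHom (dvd_refl 2) F (c 4) + ZMod.castHom (dvd_refl 2) F (c 0) * α +
    ZMod.castHom (dvd_refl 2) F (c 1 + c 4) * α ^ 2 + ZMod.castHom (dvd_refl 2) F (c 2) * α ^ 3 +
    ZMod.castHom (dvd_refl 2) F (c 3) * α ^ 4 = _
  rw [map_add, ev]
  linear_combination (-ZMod.castHom (dvd_refl 2) F (c 4)) * h

theorem ev_one (α : F) : ev α ![1, 0, 0, 0, 0] = 1 := by
  simp [ev]

theorem ev_zero (α : F) : ev α 0 = 0 := by
  simp [ev]

end Fld

end B32

open B32 H17 H29 in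
theorem qB32 : B32.{u} := by
  intro G _ X H W hX hX1 hH hcm h5 hW hWH hWX
  let F := GaloisField 2 5
  have hF : Nat.card F = 32 := GaloisField.card 2 5 (by norm_num)
  obtain ⟨α, hα⟩ := exists_root F hF
  have h2 : (2 : F) = 0 := CharTwo.two_eq_zero
  have hα0 : α ≠ 0 := by
    rintro rfl
    norm_num at hα
  have hα1 : α ≠ 1 := by
    rintro rfl
    exact one_ne_zero (by linear_combination hα + h2 : (1 : F) = 0)
  let ρ : Fˣ := Units.mk0 α hα0
  have hU : Nat.card Fˣ = 31 := by rw [Nat.card_units, hF]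
  have hρ : orderOf ρ = 31 := by
    have : Fact (Nat.Prime 31) := ⟨by norm_num⟩
    refine orderOf_eq_prime ?_ fun h => hα1 (congrArg Units.val h)
    rw [← hU, pow_card_eq_one']
  have g2 : ∀ a : Fˣ, a ∈ zpowers ρ := by
    have : zpowers ρ = ⊤ := by
      apply Subgroup.eq_top_of_card_eq
      rw [Nat.card_zpowers, hρ, hU]
    intro a
    rw [this]
    trivial
  have g3 : ∀ a : Fˣ, ∃ n : ℕ, ρ ^ n = a := fun a => mem_powers_iff_mem_zpowers.mpr (g2 a)
  obtain ⟨h, eh⟩ : ∃ h : Fˣ →* G, h ρ = H :=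
    ⟨_, monoidHomOfForallMemZpowers_apply_gen g2 (hρ ▸ orderOf_dvd_of_pow_eq_one hH)⟩
  -- the conjugates of `X`
  let x : ℕ → G := fun i => H ^ i * X * (H ^ i)⁻¹
  have hinv : ∀ i ≤ 31, H ^ (31 - i) = (H ^ i)⁻¹ := fun i hi =>
    eq_inv_of_mul_eq_one_left (by rw [← pow_add, Nat.sub_add_cancel hi, hH])
  have x0 : x 0 = X := by simp [x]
  have xx : ∀ i, x i * x i = 1 := fun i => by
    change H ^ i * X * (H ^ i)⁻¹ * (H ^ i * X * (H ^ i)⁻¹) = 1
    rw [conj_mul, hX]; group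
  have xH : ∀ i, H * x i * H⁻¹ = x (i + 1) := fun i => by
    change H * (H ^ i * X * (H ^ i)⁻¹) * H⁻¹ = H ^ (i + 1) * X * (H ^ (i + 1))⁻¹
    rw [pow_succ']; group
  have xc0 : ∀ i < 5, Commute X (x i) := by
    intro i hi
    rcases Nat.eq_zero_or_pos i with rfl | hi0
    · rw [x0]
    · have := hcm i (by interval_cases i <;> simp)
      rw [hinv i (by omega)] at this
      change X * (H ^ i * X * (H ^ i)⁻¹) = H ^ i * X * (H ^ i)⁻¹ * X
      rw [← this]; group
  have xc1 : ∀ i j, j < 5 → Commute (x i) (x (i + j)) := by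
    intro i j hj
    have := (xc0 j hj).conj (H ^ i)
    change Commute (H ^ i * X * (H ^ i)⁻¹) (H ^ (i + j) * X * (H ^ (i + j))⁻¹)
    convert this using 1
    change _ = H ^ i * (H ^ j * X * (H ^ j)⁻¹) * (H ^ i)⁻¹
    rw [pow_add]; group
  have xc : ∀ i < 5, ∀ j < 5, Commute (x i) (x j) := by
    intro i hi j hj
    rcases le_total i j with hij | hij
    · obtain ⟨k, rfl⟩ := Nat.exists_eq_add_of_le hij
      exact xc1 i k (by omega)
    · obtain ⟨k, rfl⟩ := Nat.exists_eq_add_of_le hij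
      exact (xc1 j k (by omega)).symm
  have x5 : x 5 = x 0 * x 2 := by
    rw [x0]
    change H ^ 5 * X * (H ^ 5)⁻¹ = X * (H ^ 2 * X * (H ^ 2)⁻¹)
    rw [← hinv 5 (by norm_num), ← hinv 2 (by norm_num), ← h5]
    simp only [mul_assoc]
  -- the coordinates
  have hs : Function.Surjective (ev α) := by
    intro u
    by_cases hu : u = 0
    · exact ⟨0, by rw [hu, ev_zero]⟩
    · obtain ⟨n, hn⟩ := g3 (Units.mk0 u hu)
      have hn' : α ^ n = u := by simpa [ρ] using congrArg Units.val hn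
      rw [← hn']
      clear hn hn'
      induction n with
      | zero => exact ⟨_, by rw [ev_one, pow_zero]⟩
      | succ n ih =>
        obtain ⟨c, hc⟩ := ih
        exact ⟨sh c, by rw [ev_sh hα, hc, pow_succ']⟩
  have hb : Function.Bijective (ev α) :=
    hs.bijective_of_nat_card_le (by rw [hF, Nat.card_eq_fintype_card]; rfl)
  let e := Equiv.ofBijective _ hb
  have ee : ∀ u, ev α (e.symm u) = u := fun u => e.apply_symm_apply u
  have e1 : yy x (e.symm 1) = X := by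
    have : e.symm 1 = ![1, 0, 0, 0, 0] := hb.1 (by rw [ee, ev_one])
    rw [this]
    change x 0 ^ 1 * (x 1 ^ 0 * (x 2 ^ 0 * (x 3 ^ 0 * x 4 ^ 0))) = X
    simp [x0]
  have c1 : ∀ u : F, H * yy x (e.symm u) = yy x (e.symm (ρ * u)) * H := by
    intro u
    have : e.symm (ρ * u) = sh (e.symm u) := hb.1 (by rw [ee, ev_sh hα, ee]; rfl)
    rw [this, ← yy_conj xx xc xH x5, inv_mul_cancel_right]
  have c2 : W * H = H⁻¹ * W := by
    calc W * H = H⁻¹ * W * (W * W)⁻¹ * (W * H * (W * H)) * (W * H)⁻¹ * (W * H) := by group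
      _ = _ := by rw [hW, hWH]; group
  have B : Bru (fun u : F => yy x (e.symm u)) h W := by
    refine ⟨fun u v => ?_, map_mul h, fun a u => ?_, hW, fun a => ?_, ?_⟩
    · rw [← yy_add xx xc]
      exact congrArg _ (hb.1 (by rw [ev_add, ee, ee, ee]))
    · obtain ⟨n, rfl⟩ := g3 a
      induction n generalizing u with
      | zero => simp
      | succ n ih =>
        rw [pow_succ, map_mul, eh, mul_assoc, c1, ← mul_assoc, ih, Units.val_mul, mul_assoc,
          mul_assoc]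
    · obtain ⟨n, rfl⟩ := g3 a
      rw [map_inv, map_pow, eh, ← inv_pow]
      exact SemiconjBy.pow_right c2 n
    · rw [CharTwo.neg_eq, e1]
      have hXi : X⁻¹ = X := inv_eq_of_mul_eq_one_right hX
      calc W * X * W = (W * X) ^ 3 * X⁻¹ * W * (W * W)⁻¹ * X⁻¹ := by
            simp only [pow_succ, pow_zero, one_mul]; group
        _ = _ := by rw [hW, hWX, hXi]; group
  obtain ⟨φ, hφ, f1, f2, f3⟩ := B.exists_injective (by rw [e1]; exact hX1) (c := ρ) (by
    intro h
    have := orderOf_dvd_of_pow_eq_one (x := ρ) (n := 2) (by rw [pow_two, h])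
    rw [hρ] at this
    norm_num at this)
  have hr : φ.range = closure ({X, H, W} : Set G) := by
    apply le_antisymm
    · have mX : X ∈ closure ({X, H, W} : Set G) := subset_closure (by simp)
      have mH : H ∈ closure ({X, H, W} : Set G) := subset_closure (by simp)
      have mW : W ∈ closure ({X, H, W} : Set G) := subset_closure (by simp)
      have mx : ∀ i a, pw (x i) a ∈ closure ({X, H, W} : Set G) := fun i a =>
        pow_mem (mul_mem (mul_mem (pow_mem mH i) mX) (inv_mem (pow_mem mH i))) _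
      have m1 : ∀ u : F, φ (aff 1 u) ∈ closure ({X, H, W} : Set G) := fun u => by
        rw [f1]
        exact mul_mem (mx _ _) (mul_mem (mx _ _) (mul_mem (mx _ _) (mul_mem (mx _ _) (mx _ _))))
      have m2 : ∀ (a : Fˣ) (u : F), φ (aff a u) ∈ closure ({X, H, W} : Set G) := fun a u => by
        obtain ⟨n, rfl⟩ := g3 a
        rw [aff_eq_mul, map_mul, f2, map_pow, eh]
        exact mul_mem (m1 u) (pow_mem mH n)
      rintro _ ⟨g, rfl⟩
      rcases pgl_cases g with ⟨a, u, rfl⟩ | ⟨a, u, v, rfl⟩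
      · exact m2 a u
      · rw [map_mul, map_mul, f3]
        exact mul_mem (mul_mem (m1 v) mW) (m2 a u)
    · rw [closure_le]
      rintro g (rfl | rfl | rfl)
      · exact ⟨_, (f1 1).trans e1⟩
      · exact ⟨_, (f2 ρ).trans eh⟩
      · exact ⟨_, f3⟩
  have iso : ↥(closure ({X, H, W} : Set G)) ≃* PGL(2, F) :=
    ((MonoidHom.ofInjective hφ).trans (MulEquiv.subgroupCongr hr)).symm
  let _ : Fintype F := Fintype.ofFinite F
  refine ⟨⟨F, inferInstance, inferInstance, by rw [← Nat.card_eq_fintype_card, hF],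
    ⟨iso.trans (H15.pslEquivPGL (by rw [hF]; norm_num)).symm⟩⟩, ?_⟩
  rw [Nat.card_congr iso.toEquiv, card_PGL2, hF]

end Cfsg.Agent.H97.JM
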