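import Cfsg.Agent.H41.JU3Defs
import Cfsg.Agent.H9.JmSYL
import Cfsg.Agent.H33.J4Odd1

/-!
# The maximal subgroup `U3(3)` of the fourth Janko group: the final step
-/

set_option autoImplicit false

namespace Cfsg.Agent.H41.JU3

open Subgroup Cfsg.Agent.H97.JM

universe u

theorem pFIN (hCR : CR.{u}) (hCB : CB.{u}) (hCLS : CLS.{u}) (hNRM : NRM.{u}) (hSE : SE.{u})
    (hBIG : BIG.{u}) (hSV : SV.{u}) (hSIM : SIM.{u}) (hID : ID.{u}) : FIN.{u} := by
  intro G _ _ hG h43 ⟨M, F, x, y, v, w, s, hR, hM, hBM, hFM, hs, hsF, hFN, hF, hN, hx, hy, hsN⟩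
  have hRc := hCR G x y v w hR
  obtain ⟨hRB, hBN, hBc⟩ := hCB G x y v w hR hRc
  have hwB : w ∈ BB x y v w := subset_closure (by simp)
  have h7 : Fact (Nat.Prime 7) := ⟨by norm_num⟩
  obtain ⟨S, hS⟩ := H33.J4O.exists_sylow (p := 7) (A := zpowers s) (k := 1)
    (by rw [Nat.card_zpowers, hs, pow_one]) (by rw [hG.card]; norm_num)
  have h1512 : ∀ H : Subgroup G, M ≤ H → 1512 ∣ Nat.card H := by
    intro H hH
    have h1 : 216 ∣ Nat.card H := hBc ▸ card_dvd_of_le (hBM.trans hH)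
    have h2 : 7 ∣ Nat.card H := hs ▸ H.orderOf_dvd_natCard (hH (hFM hsF))
    exact Nat.Coprime.mul_dvd_of_dvd_of_dvd (by norm_num : Nat.Coprime 216 7) h1 h2
  have hsm : ∀ H : Subgroup G, M ≤ H → H ≠ ⊤ → Small M H := fun H hH hT =>
    ⟨hH, fun h => hT (hBIG G hG H (h1512 H hH) h.1 h.2)⟩
  have key : ∀ H : Subgroup G, M ≤ H → H ≠ ⊤ → Nat.card H = 6048 := by
    intro H hH hT
    have sm := hsm H hH hT
    have hBH := hBM.trans hH
    refine hSV G hG h43 H hT (h1512 H hH) ?_ ?_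
    · rw [← hBc]
      refine hSE G (RR x y v) _ H (by rw [hG.card]; norm_num) hRc hRB hBN hBH ?_ ?_
      · intro g hg hg1 c hc
        obtain ⟨b, hb, hbg⟩ := hCLS G x y v w hR g hg hg1
        have h1 : b * c * b⁻¹ ∈ H ⊓ centralizer ({b * g * b⁻¹} : Set G) := by
          refine ⟨H.mul_mem (H.mul_mem (hBH hb) hc.1) (H.inv_mem (hBH hb)), ?_⟩
          refine H33.J4O.mcs.mpr ?_
          rw [conj_mul, conj_mul, H33.J4O.mcs.mp hc.2]
        have h2 : b * c * b⁻¹ ∈ BB x y v w := by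
          rcases hbg with h | h <;> rw [h] at h1
          · exact hx H sm h1
          · exact hRB (hy H sm h1)
        rwa [mul_mem_cancel_right (inv_mem hb), mul_mem_cancel_left hb] at h2
      · intro g hg
        rcases hNRM G x y v w hR g hg.2 with h | h
        · exact hx H sm ⟨hg.1, H33.J4O.mcs.mpr h⟩
        · exact (mul_mem_cancel_left hwB).mp
            (hx H sm ⟨H.mul_mem (hBH hwB) hg.1, H33.J4O.mcs.mpr h⟩)
    · rw [← hF]
      refine pSYL G 7 S F H ?_ (hFM.trans hH) ?_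
      · rw [hS, zpowers_le]
        exact hsF
      · rw [hS]
        exact hsN H sm
  have hMc := key M le_rfl hM
  have sm := hsm M le_rfl hM
  have hsimple : IsSimpleGroup M := hSIM G hG M F x y v w s hR hMc hRc (hRB.trans hBM) hBM
    (hCLS G x y v w hR) (hy M sm) hs (hFM hsF)
    ((inf_le_inf_left _ (H33.J4O.cent_le_norm s)).trans (hsN M sm)) hF hN
  refine ⟨M, ⟨hM, fun H hH => by_contra fun hT => hH.ne ?_⟩, hID M hMc⟩
  exact eq_of_le_of_card_ge hH.le (by rw [hMc, key H hH.le hT])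

end Cfsg.Agent.H41.JU3
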