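import Cfsg.Agent.H76.KInvSp
import Cfsg.Agent.H31.KIBase

/-!
# Centralisers of involutions in `PSp_{2m}(q)`, `q` odd
-/

set_option autoImplicit false

namespace Cfsg.Agent.H76.KSp

open Cfsg.Agent.H75.KI Cfsg.Agent.H27

theorem ringChar_ne_two {K : Type*} [Field K] (h : (2 : K) ≠ 0) : ringChar K ≠ 2 := fun e =>
  h (by have := ringChar.Nat.cast_ringChar (R := K); rwa [e] at this)

theorem glBase : GLBase := fun _ _ _ _ _ _ _ h => H31.KI.strGL (ringChar_ne_two h)

theorem guBase : GUBase := fun _ _ _ _ _ _ _ _ _ h hH => H31.KI.strGU (ringChar_ne_two h) hH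

theorem str_cent_neg' {F V : Type} [Field F] [AddCommGroup V] [Module F V]
    {B : LinearMap.BilinForm F V} [Finite F] [Finite V] (hB : B.Nondegenerate)
    (hA : B.IsAlt ∨ ∀ u v, B u v = B v u) (h2 : (2 : F) ≠ 0)
    {g : isomGroup B} (hg : ∀ v, (g : V ≃ₗ[F] V) ((g : V ≃ₗ[F] V) v) = -v) :
    Str 1 (Subgroup.centralizer ({g} : Set (isomGroup B))) :=
  str_cent_neg glBase guBase hB hA h2 hg

theorem lieInv_psp (F : Type) [Field F] [Fintype F] (m : ℕ) (h : Odd (Fintype.card F))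
    (_hm : 2 ≤ m) : LieInv 2 (PSp m F) :=
  lieInv_psp_of glBase guBase F m h

end Cfsg.Agent.H76.KSp
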