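import Mathlib

set_option autoImplicit false

namespace Cfsg.Agent.H76

universe u v w

open Module Polynomial Submodule

variable {K : Type u} [Field K] [IsAlgClosed K] {σ : K →+* K} {q : ℕ}

theorem exists_root_of_X_sq_dvd {P : K[X]} (h : X ^ 2 ∣ P) (h0 : P ≠ 0) :
    ∃ t, t ≠ 0 ∧ P.eval t = t := by
  obtain ⟨Q, rfl⟩ := h
  have hQ : Q ≠ 0 := right_ne_zero_of_mul h0
  obtain ⟨t, ht⟩ := IsAlgClosed.exists_root (X * Q - C 1) (by
    rw [degree_sub_C (by rw [degree_mul, degree_X, degree_eq_natDegree hQ]; positivity), degree_mul,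
      degree_X, degree_eq_natDegree hQ]
    positivity)
  have h1 : t * Q.eval t = 1 := by simpa [sub_eq_zero] using ht
  exact ⟨t, left_ne_zero_of_mul_eq_one h1, by simp [sq, mul_assoc, h1]⟩

theorem exists_fixed_vector (hq : 2 ≤ q) (hσ : ∀ x, σ x = x ^ q) {V : Type v} [AddCommGroup V]
    [Module K V] [FiniteDimensional K V] [Nontrivial V] (φ : V →ₛₗ[σ] V)
    (hφ : Function.Injective φ) : ∃ w, w ≠ 0 ∧ φ w = w := by
  classical
  obtain ⟨v, hv⟩ := exists_ne (0 : V)
  let P : ℕ → Prop := fun m => φ^[m] v ∈ span K (Set.range fun i : Fin m => φ^[i] v)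
  have hex : ∃ m, P m := by
    by_contra! h
    have : ∀ m, LinearIndependent K fun i : Fin m => φ^[i] v := fun m => by
      induction m with
      | zero => exact linearIndependent_empty_type
      | succ m ih =>
        convert linearIndependent_fin_snoc.2 ⟨ih, h m⟩ with i
        cases i using Fin.lastCases <;> simp
    have := (this (finrank K V + 1)).fintype_card_le_finrank
    simp at this
  obtain ⟨k, hk⟩ : ∃ k, Nat.find hex = k + 1 := Nat.exists_eq_succ_of_ne_zero fun h => by
    have := Nat.find_spec hex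
    rw [h] at this
    exact hv (by simpa [P] using this)
  have h1 : P (k + 1) := hk ▸ Nat.find_spec hex
  have h2 : ¬ P k := Nat.find_min hex (by omega)
  obtain ⟨a, ha⟩ := (mem_span_range_iff_exists_fun K).1 h1
  have hs : Function.Surjective σ := fun x => by
    simpa only [hσ] using IsAlgClosed.exists_pow_nat_eq x (by omega : 0 < q)
  have h3 : a 0 ≠ 0 := fun h => h2 (by
    choose b hb using fun i : Fin k => hs (a i.succ)
    refine (mem_span_range_iff_exists_fun K).2 ⟨b, hφ ?_⟩
    rw [← Function.iterate_succ_apply' φ, ← ha, Fin.sum_univ_succ, h, zero_smul, zero_add, map_sum]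
    simp [hb, map_smulₛₗ, ← Function.iterate_succ_apply' φ])
  let a' : ℕ → K := fun i => if h : i < k + 1 then a ⟨i, h⟩ else 0
  let p : ℕ → K[X] := fun i => Nat.rec (C (a' 0) * X ^ q) (fun i r => r ^ q + C (a' (i + 1)) * X ^ q) i
  have hp : ∀ i, X ^ 2 ∣ p i ∧ q ≤ (p i).natDegree := fun i => by
    induction i with
    | zero => exact ⟨(pow_dvd_pow _ hq).mul_left _, (natDegree_C_mul_X_pow q _ h3).ge⟩
    | succ i ih =>
      refine ⟨(ih.1.pow (by omega)).add ((pow_dvd_pow _ hq).mul_left _), ?_⟩
      have h4 : q < (p i ^ q).natDegree := by rw [natDegree_pow]; nlinarith [ih.2]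
      exact h4.le.trans (natDegree_add_eq_left_of_natDegree_lt
        ((natDegree_C_mul_X_pow_le _ _).trans_lt h4)).ge
  obtain ⟨t, ht, ht'⟩ := exists_root_of_X_sq_dvd (hp k).1 fun h => by
    have := (hp k).2
    rw [h, natDegree_zero] at this
    omega
  refine ⟨∑ i : Fin (k + 1), (p i).eval t • φ^[i] v, fun h => h2 ?_, ?_⟩
  · rw [Fin.sum_univ_castSucc, Fin.val_last, ht', add_eq_zero_iff_neg_eq] at h
    refine (smul_mem_iff _ ht).1 (h ▸ neg_mem (sum_mem fun i _ => smul_mem _ _ ?_))
    exact subset_span ⟨i, rfl⟩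
  · rw [map_sum, Fin.sum_univ_castSucc, Fin.val_last, ht', map_smulₛₗ,
      ← Function.iterate_succ_apply' φ, ← ha, Finset.smul_sum, Fin.sum_univ_succ,
      Fin.sum_univ_succ, add_left_comm, ← Finset.sum_add_distrib]
    congr 1
    · have : p 0 = C (a 0) * X ^ q := rfl
      rw [Fin.val_zero, this, hσ, smul_smul, mul_comm, eval_mul, eval_C, eval_pow, eval_X]
    · refine Finset.sum_congr rfl fun i _ => ?_
      have h4 : a' (i + 1) = a i.succ := dif_pos i.succ.2
      have : p (i + 1) = p i ^ q + C (a' (i + 1)) * X ^ q := rfl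
      rw [Fin.val_succ, this, h4, map_smulₛₗ, hσ, hσ, smul_smul, mul_comm, eval_add, eval_mul,
        eval_C, eval_pow, eval_pow, eval_X, add_smul, Function.iterate_succ_apply' φ]
      rfl

/-- Lang's theorem: a `q`-semilinear bijection has a spanning set of fixed vectors. -/
theorem span_fixed_eq_top (hq : 2 ≤ q) (hσ : ∀ x, σ x = x ^ q) {V : Type v} [AddCommGroup V]
    [Module K V] [FiniteDimensional K V] (φ : V →ₛₗ[σ] V) (hφ : Function.Injective φ) :
    span K {v | φ v = v} = ⊤ := by
  induction h : finrank K V generalizing V with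
  | zero =>
    have := Module.finrank_zero_iff.1 h
    exact Subsingleton.elim _ _
  | succ n ih =>
    have := Module.nontrivial_of_finrank_pos (R := K) (M := V) (by omega)
    obtain ⟨w, hw, hw'⟩ := exists_fixed_vector hq hσ φ hφ
    have h1 : K ∙ w ≤ (K ∙ w).comap φ := by
      rw [span_singleton_le_iff_mem, mem_comap, hw']; exact mem_span_singleton_self w
    have h2 := ih ((K ∙ w).mapQ (K ∙ w) φ h1) (by
      rw [injective_iff_map_eq_zero]
      intro x hx
      obtain ⟨x, rfl⟩ := Submodule.Quotient.mk_surjective _ x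
      rw [mapQ_apply, Quotient.mk_eq_zero, mem_span_singleton] at hx
      obtain ⟨c, hc⟩ := hx
      obtain ⟨c, rfl⟩ := IsAlgClosed.exists_pow_nat_eq c (by omega : 0 < q)
      rw [Quotient.mk_eq_zero, mem_span_singleton]
      exact ⟨c, hφ (by rw [map_smulₛₗ, hw', hσ, hc])⟩) (by
      have := (K ∙ w).finrank_quotient_add_finrank
      rw [finrank_span_singleton hw] at this
      omega)
    have h3 : K ∙ w ≤ span K {v | φ v = v} := span_mono (by simpa using hw')
    rw [eq_top_iff, ← comap_top (K ∙ w).mkQ, ← h2, ← sup_eq_right.2 h3, ← comap_map_mkQ]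
    refine comap_mono (span_le.2 fun x hx => ?_)
    obtain ⟨x, rfl⟩ := Submodule.Quotient.mk_surjective _ x
    obtain ⟨c, hc⟩ := mem_span_singleton.1 ((Submodule.Quotient.eq _).1 hx)
    obtain ⟨y, hy⟩ := IsAlgClosed.exists_root (X ^ q - X + C c) (by
      rw [degree_add_C, degree_sub_eq_left_of_degree_lt] <;>
        try rw [degree_sub_eq_left_of_degree_lt]
      all_goals simp; omega)
    refine ⟨x + y • w, subset_span ?_, (Submodule.Quotient.eq _).2 (by simp [smul_mem])⟩
    have h4 : y ^ q = y - c := by simpa [eq_sub_iff_add_eq, sub_add_eq_add_sub, sub_eq_zero] using hy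
    change φ _ = _
    rw [map_add, map_smulₛₗ, hw', hσ, h4, sub_smul, hc]
    abel

end Cfsg.Agent.H76
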