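import Cfsg.Agent.H76.Invol

set_option autoImplicit false

namespace Cfsg.Agent.H76

universe u v w

theorem card_eq_mul_of_fibers {A B : Type*} [Finite A] (f : A → B) {c : ℕ} (hc : c ≠ 0)
    (h : ∀ b, Nat.card {a // f a = b} = c) : Nat.card A = c * Nat.card B := by
  have hs : Function.Surjective f := fun b => by
    obtain ⟨⟨a, ha⟩⟩ := (Nat.card_ne_zero.1 ((h b).symm ▸ hc)).1
    exact ⟨a, ha⟩
  have := Finite.of_surjective f hs
  have := Fintype.ofFinite B
  rw [← Nat.card_congr (Equiv.sigmaFiberEquiv f), Nat.card_sigma]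
  simp [h, mul_comm]

theorem card_comp_addHom {R S : Type*} [AddGroup R] [AddGroup S] [Finite R] (φ : R →+ S)
    (hs : Function.Surjective φ) (P : S → Prop) :
    Nat.card {x // P (φ x)} = Nat.card {x // φ x = 0} * Nat.card {s // P s} := by
  have : Nonempty {x // φ x = 0} := ⟨⟨0, map_zero φ⟩⟩
  refine card_eq_mul_of_fibers (fun x : {x // P (φ x)} => (⟨φ x, x.2⟩ : {s // P s}))
    Nat.card_pos.ne' fun s => ?_
  obtain ⟨x, hx⟩ := hs s
  exact Nat.card_congr
    { toFun y := ⟨-x + y.1, by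
        rw [map_add, map_neg, hx, show φ y.1 = s from congrArg Subtype.val y.2, neg_add_cancel]⟩
      invFun k := ⟨⟨x + k, by rw [map_add, k.2, add_zero, hx]; exact s.2⟩,
        Subtype.ext (by simp [k.2, hx])⟩
      left_inv y := by simp
      right_inv k := by simp }

theorem card_eq_ker_mul {R S : Type*} [AddGroup R] [AddGroup S] [Finite R] (φ : R →+ S)
    (hs : Function.Surjective φ) : Nat.card R = Nat.card {x // φ x = 0} * Nat.card S := by
  simpa using card_comp_addHom φ hs fun _ => True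

theorem card_units_eq {M : Type*} [Monoid M] : Nat.card Mˣ = Nat.card {x : M // IsUnit x} :=
  Nat.card_eq_of_bijective (fun u => ⟨u, u.isUnit⟩)
    ⟨fun _ _ h => Units.ext (congrArg Subtype.val h), fun ⟨_, u, hu⟩ => ⟨u, Subtype.ext hu⟩⟩

section Ring
variable {R S : Type*} [Ring R] [Ring S] {φ : R →+* S}

theorem isUnit_of_map_eq_one (hn : ∀ x, φ x = 0 → IsNilpotent x) {x : R} (hx : φ x = 1) :
    IsUnit x := by
  have := (hn (x - 1) (by rw [map_sub, hx, map_one, sub_self])).isUnit_add_one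
  rwa [sub_add_cancel] at this

theorem isUnit_of_nilker (hs : Function.Surjective φ) (hn : ∀ x, φ x = 0 → IsNilpotent x) {x : R}
    (hx : IsUnit (φ x)) : IsUnit x := by
  obtain ⟨u, hu⟩ := hx
  obtain ⟨y, hy⟩ := hs ↑u⁻¹
  obtain ⟨a, ha⟩ := isUnit_of_map_eq_one hn (x := x * y) (by rw [map_mul, hy, ← hu, u.mul_inv])
  obtain ⟨b, hb⟩ := isUnit_of_map_eq_one hn (x := y * x) (by rw [map_mul, hy, ← hu, u.inv_mul])
  have h1 : x * (y * ↑a⁻¹) = 1 := by rw [← mul_assoc, ← ha, a.mul_inv]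
  have h2 : (↑b⁻¹ * y) * x = 1 := by rw [mul_assoc, ← hb, b.inv_mul]
  exact ⟨⟨x, y * ↑a⁻¹, h1, by rw [← left_inv_eq_right_inv h2 h1, h2]⟩, rfl⟩

theorem card_units_nilker [Finite R] (hs : Function.Surjective φ)
    (hn : ∀ x, φ x = 0 → IsNilpotent x) :
    Nat.card Rˣ = Nat.card {x // φ x = 0} * Nat.card Sˣ := by
  rw [card_units_eq, card_units_eq]
  exact (Nat.card_congr (Equiv.subtypeEquivRight fun x =>
    ⟨fun h => h.map φ, isUnit_of_nilker hs hn⟩)).trans
    (card_comp_addHom φ.toAddMonoidHom hs IsUnit)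

variable {τ : R → R} {τ' : S → S}

/-- Symmetric elements of `1 + J` are norms from `1 + J`. -/
theorem IsAnti.exists_norm_nil (h : IsAnti τ) {c : R} (hc : ∀ a, Commute c a)
    (hc' : ∀ a, Commute (τ c) a) (hcc : τ (τ c) = c) (h1 : c + τ c = 1) (k : ℕ) {j : R}
    (hj : φ j = 0) (hτ : τ j = j) (hk : j ^ k = 0) : ∃ z, φ z = 1 ∧ τ z * (1 + j) * z = 1 := by
  induction k using Nat.strong_induction_on generalizing j with
  | _ k ih =>
  by_cases h0 : j = 0
  · exact ⟨1, map_one φ, by simp [h0, h.one]⟩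
  have hk2 : 2 ≤ k := by
    rcases k with _ | _ | k
    · exact absurd (by simpa using congrArg (j * ·) hk.symm |>.symm) h0
    · exact absurd (by simpa using hk) h0
    · omega
  set w := c * τ c * (1 + j) - 1 with hw
  have hjw : Commute j w :=
    ((((hc j).symm.mul_right (hc' j).symm).mul_right
      ((Commute.one_right j).add_right (Commute.refl j)))).sub_right (Commute.one_right j)
  have hτw : τ w = w := by
    rw [hw, h.sub, h.mul, h.mul, h.add, h.one, hτ, hcc, ((hc _).mul_left (hc' _)).eq]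
  obtain ⟨z, hz, hz'⟩ := ih (k - 1) (by omega) (j := j * j * w) (by simp [hj])
    (by rw [h.mul, h.mul, hτ, hτw, (hjw.mul_left hjw).eq])
    (by rw [(hjw.mul_left hjw).mul_pow, ← sq, ← pow_mul,
      pow_eq_zero_of_le (show k ≤ 2 * (k - 1) by omega) hk, zero_mul])
  refine ⟨(1 - c * j) * z, by simp [hj, hz], ?_⟩
  have e : τ (1 - c * j) * (1 + j) * (1 - c * j) = 1 + j * j * w := by
    rw [h.sub, h.one, h.mul, hτ, hw]
    have h2 : τ c = 1 - c := by rw [← h1]; abel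
    rw [h2]
    have h3 := (hc j).eq
    have h4 : ∀ x, c * (j * x) = j * (c * x) := fun x => by rw [← mul_assoc, h3, mul_assoc]
    simp only [mul_sub, sub_mul, mul_add, add_mul, mul_one, one_mul, mul_assoc, h3, h4]
    abel
  rw [← e] at hz'
  simpa only [h.mul, mul_assoc] using hz'

/-- The unitary group of a finite ring with involution, modulo a nil ideal. -/
theorem card_unitary_nilker [Finite R] (hs : Function.Surjective φ)
    (hn : ∀ x, φ x = 0 → IsNilpotent x) (h : IsAnti τ) (hτ : ∀ a, τ (τ a) = a)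
    (hφ : ∀ a, φ (τ a) = τ' (φ a)) {c : R} (hc : ∀ a, Commute c a) (h1 : c + τ c = 1) :
    Nat.card {x // τ x * x = 1} * Nat.card {j // φ j = 0 ∧ τ j = j} =
      Nat.card {j // φ j = 0} * Nat.card {s // τ' s * s = 1} := by
  have hc' : ∀ a, Commute (τ c) a := fun a => hτ a ▸ h.commute (hc (τ a))
  have hτ1 : τ' 1 = 1 := by rw [← map_one φ, ← hφ, h.one]
  have norm : ∀ y, φ y = 1 → τ y = y → ∃ z, φ z = 1 ∧ τ z * y * z = 1 := fun y hy hy' => by
    have hy0 : φ (y - 1) = 0 := by rw [map_sub, hy, map_one, sub_self]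
    obtain ⟨k, hk⟩ := hn _ hy0
    simpa using h.exists_norm_nil (φ := φ) hc hc' (hτ c) h1 k hy0 (by rw [h.sub, hy', h.one]) hk
  have : Nonempty {k // φ k = 1 ∧ τ k * k = 1} := ⟨⟨1, map_one φ, by rw [h.one, one_mul]⟩⟩
  have e1 : Nat.card {x // τ x * x = 1} =
      Nat.card {k // φ k = 1 ∧ τ k * k = 1} * Nat.card {s // τ' s * s = 1} := by
    refine card_eq_mul_of_fibers (fun x : {x // τ x * x = 1} =>
      (⟨φ x, by rw [← hφ, ← map_mul, x.2, map_one]⟩ : {s // τ' s * s = 1}))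
      Nat.card_pos.ne' fun s => ?_
    obtain ⟨x, hx⟩ := hs s
    obtain ⟨z, hz, hz'⟩ := norm (τ x * x) (by rw [map_mul, hφ, hx, s.2]) (by rw [h.mul, hτ])
    have h2 : τ (x * z) * (x * z) = 1 := by rw [h.mul, ← hz']; simp only [mul_assoc]
    have h3 : φ (x * z) = s := by rw [map_mul, hz, hx, mul_one]
    generalize x * z = y at h2 h3
    have h4 : y * τ y = 1 := mul_eq_one_comm.1 h2
    exact Nat.card_congr
      { toFun a := ⟨τ y * a.1.1, by
          rw [map_mul, hφ, h3, show φ a.1.1 = s from congrArg Subtype.val a.2, s.2], by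
          rw [h.mul, hτ, mul_assoc, ← mul_assoc y, h4, one_mul, a.1.2]⟩
        invFun k := ⟨⟨y * k, by
          rw [h.mul, mul_assoc, ← mul_assoc (τ y), h2, one_mul, k.2.2]⟩,
          Subtype.ext (by simp [k.2.1, h3])⟩
        left_inv a := by simp [← mul_assoc, h4]
        right_inv k := by simp [← mul_assoc, h2] }
  have e2 : Nat.card {z // φ z = 1} =
      Nat.card {k // φ k = 1 ∧ τ k * k = 1} * Nat.card {y // φ y = 1 ∧ τ y = y} := by
    refine card_eq_mul_of_fibers (fun z : {z // φ z = 1} =>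
      (⟨τ z * z, by rw [map_mul, hφ, z.2, hτ1, one_mul], by rw [h.mul, hτ]⟩ :
        {y // φ y = 1 ∧ τ y = y})) Nat.card_pos.ne' fun y => ?_
    obtain ⟨z, hz, hz'⟩ := norm y y.2.1 y.2.2
    obtain ⟨u, rfl⟩ := isUnit_of_map_eq_one hn hz
    have h2 : φ ↑u⁻¹ = 1 := by
      have := congrArg φ u.mul_inv
      rwa [map_mul, hz, one_mul, map_one] at this
    have h3 : τ ↑u⁻¹ * τ u = 1 := by rw [← h.mul, u.mul_inv, h.one]
    have h4 : τ ↑u⁻¹ * ↑u⁻¹ = y := by
      have := congrArg (fun a => τ ↑u⁻¹ * a * ↑u⁻¹) hz'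
      simpa only [mul_assoc, u.mul_inv, mul_one, ← mul_assoc (τ ↑u⁻¹), h3, one_mul] using this.symm
    exact Nat.card_congr
      { toFun a := ⟨a.1.1 * u, by rw [map_mul, a.1.2, hz, one_mul], by
          rw [h.mul, ← hz', ← show τ a.1.1 * a.1.1 = y from congrArg Subtype.val a.2]
          simp only [mul_assoc]⟩
        invFun k := ⟨⟨k * ↑u⁻¹, by rw [map_mul, k.2.1, h2, one_mul]⟩, Subtype.ext (by
          change τ (k * ↑u⁻¹) * (k * ↑u⁻¹) = y
          rw [h.mul, mul_assoc, ← mul_assoc (τ k), k.2.2, one_mul, h4])⟩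
        left_inv a := by simp
        right_inv k := by simp }
  have e3 : Nat.card {z // φ z = 1} = Nat.card {j // φ j = 0} :=
    Nat.card_congr ((Equiv.subRight 1).subtypeEquiv fun a => by simp [sub_eq_zero])
  have e4 : Nat.card {y // φ y = 1 ∧ τ y = y} = Nat.card {j // φ j = 0 ∧ τ j = j} :=
    Nat.card_congr ((Equiv.subRight 1).subtypeEquiv fun a => by
      simp [sub_eq_zero, h.sub, h.one])
  rw [e1, ← e3, e2, e4]; ring

/-- In the unitary case the symmetric elements of an ideal make up half of it. -/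
theorem card_sym_sq [Finite R] (h : IsAnti τ) (hτ : ∀ a, τ (τ a) = a)
    (hφ : ∀ a, φ a = 0 → φ (τ a) = 0) {θ : R} (hc : ∀ a, Commute θ a) (hθ : IsUnit (θ - τ θ)) :
    Nat.card {j // φ j = 0} = Nat.card {j // φ j = 0 ∧ τ j = j} ^ 2 := by
  have hc' : ∀ a, Commute (τ θ) a := fun a => hτ a ▸ h.commute (hc (τ a))
  obtain ⟨u, hu⟩ := hθ
  have hu1 : ∀ a, Commute (u : R) a := fun a => hu ▸ (hc a).sub_left (hc' a)
  have hu2 : ∀ a, Commute ((u⁻¹ : Rˣ) : R) a := fun a => (hu1 a).units_inv_left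
  have hu3 : τ u = -u := by rw [hu, h.sub, hτ, neg_sub]
  have hu4 : τ ↑u⁻¹ = -↑u⁻¹ := by
    have : τ u * τ ↑u⁻¹ = 1 := by rw [← h.mul, u.inv_mul, h.one]
    rw [hu3, neg_mul] at this
    have h2 := congrArg (fun a => -(((u⁻¹ : Rˣ) : R) * a)) this
    simpa [← mul_assoc] using h2
  rw [sq, ← Nat.card_prod]
  symm
  refine Nat.card_eq_of_bijective (fun x => ⟨x.1 + θ * x.2, by simp [x.1.2.1, x.2.2.1]⟩) ⟨?_, ?_⟩
  · rintro ⟨a, b⟩ ⟨a', b'⟩ hab
    have e1 : a.1 + θ * b.1 = a'.1 + θ * b'.1 := congrArg Subtype.val hab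
    have e2 := congrArg τ e1
    rw [h.add, h.add, h.mul, h.mul, a.2.2, b.2.2, a'.2.2, b'.2.2, ← (hc' _).eq, ← (hc' _).eq] at e2
    have e3 : u * b.1 = u * b'.1 := by
      rw [hu, sub_mul, sub_mul]
      have : θ * b.1 - τ θ * b.1 = (a.1 + θ * b.1) - (a.1 + τ θ * b.1) := by abel
      rw [this, e1, e2]; abel
    have e4 : b.1 = b'.1 := (Units.mul_right_inj u).1 e3
    rw [e4, add_left_inj] at e1
    exact Prod.ext (Subtype.ext e1) (Subtype.ext e4)
  · rintro ⟨j, hj⟩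
    have hb : τ (↑u⁻¹ * (j - τ j)) = ↑u⁻¹ * (j - τ j) := by
      rw [h.mul, h.sub, hτ, hu4, mul_neg, ← neg_mul, neg_sub, (hu2 _).eq]
    refine ⟨(⟨j - θ * (↑u⁻¹ * (j - τ j)), by simp [hj, hφ j hj], ?_⟩,
      ⟨↑u⁻¹ * (j - τ j), by simp [hj, hφ j hj], hb⟩), Subtype.ext (by simp)⟩
    rw [h.sub, h.mul, hb, ← (hc' _).eq]
    have : θ * (↑u⁻¹ * (j - τ j)) - τ θ * (↑u⁻¹ * (j - τ j)) = j - τ j := by
      rw [← sub_mul, ← hu, ← mul_assoc, u.mul_inv, one_mul]
    rw [sub_eq_sub_iff_add_eq_add, ← sub_eq_iff_eq_add, add_sub_assoc, this, add_sub_cancel]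

end Ring

section Pi
variable {R : Type*} [Ring R] [Finite R] {ι : Type*} [Fintype ι] {S : ι → Type*}
  [∀ i, Ring (S i)] (φ : ∀ i, R →+* S i)

omit [Finite R] [Fintype ι] in
theorem pi_surjective (hs : ∀ u : ∀ i, S i, ∃ x, ∀ i, φ i x = u i) :
    Function.Surjective (RingHom.pi φ) := fun u => (hs u).imp fun _ h => funext h

theorem card_pi_ker (hs : ∀ u : ∀ i, S i, ∃ x, ∀ i, φ i x = u i) :
    Nat.card R = Nat.card {x // ∀ i, φ i x = 0} * ∏ i, Nat.card (S i) := by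
  rw [card_eq_ker_mul (RingHom.pi φ).toAddMonoidHom (pi_surjective φ hs), Nat.card_pi]
  simp [funext_iff]

theorem card_units_pi (hs : ∀ u : ∀ i, S i, ∃ x, ∀ i, φ i x = u i)
    (hn : ∀ x, (∀ i, φ i x = 0) → IsNilpotent x) :
    Nat.card Rˣ = Nat.card {x // ∀ i, φ i x = 0} * ∏ i, Nat.card (S i)ˣ := by
  rw [card_units_nilker (pi_surjective φ hs) fun x hx => hn x (congrFun hx),
    Nat.card_congr MulEquiv.piUnits.toEquiv, Nat.card_pi]
  simp [funext_iff]

theorem card_unitary_pi (hs : ∀ u : ∀ i, S i, ∃ x, ∀ i, φ i x = u i)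
    (hn : ∀ x, (∀ i, φ i x = 0) → IsNilpotent x) {τ : R → R} (τ' : ∀ i, S i → S i)
    (h : IsAnti τ) (hτ : ∀ a, τ (τ a) = a) (hφ : ∀ i a, φ i (τ a) = τ' i (φ i a)) {c : R}
    (hc : ∀ a, Commute c a) (h1 : c + τ c = 1) :
    Nat.card {x // τ x * x = 1} * Nat.card {j // (∀ i, φ i j = 0) ∧ τ j = j} =
      Nat.card {j // ∀ i, φ i j = 0} * ∏ i, Nat.card {s // τ' i s * s = 1} := by
  have := card_unitary_nilker (τ' := fun (s : ∀ i, S i) i => τ' i (s i)) (pi_surjective φ hs)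
    (fun x hx => hn x (congrFun hx)) h hτ (fun a => funext fun i => hφ i a) hc h1
  simp only [funext_iff, RingHom.pi_apply, Pi.zero_apply, Pi.mul_apply, Pi.one_apply] at this
  rw [this, Nat.card_congr (Equiv.subtypePiEquivPi (p := fun i s => τ' i s * s = 1)), Nat.card_pi]

omit [Fintype ι] in
theorem card_sym_sq_pi {τ : R → R} (h : IsAnti τ) (hτ : ∀ a, τ (τ a) = a)
    (hφ : ∀ i a, φ i a = 0 → φ i (τ a) = 0) {θ : R} (hc : ∀ a, Commute θ a)
    (hθ : IsUnit (θ - τ θ)) :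
    Nat.card {j // ∀ i, φ i j = 0} = Nat.card {j // (∀ i, φ i j = 0) ∧ τ j = j} ^ 2 := by
  have := card_sym_sq (φ := RingHom.pi φ) h hτ
    (fun a ha => funext fun i => hφ i a (congrFun ha i)) hc hθ
  simpa only [funext_iff, RingHom.pi_apply, Pi.zero_apply] using this

end Pi

end Cfsg.Agent.H76
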