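import Mathlib
import Cfsg.Agent.H45.OnDefs

/-!
An involution lies in the product of the components at only one point.
-/

set_option autoImplicit false

namespace Cfsg.Agent.H76.OnLa

open Cfsg.Agent.H45.On Subgroup

universe u v

section Mod

variable {G : Type u} [Group G]

/-- Equality modulo the involution `u`. -/
def R (u p q : G) : Prop := p = q ∨ p = q * u

theorem R.symm {u p q : G} (hu : u * u = 1) (h : R u p q) : R u q p := by
  rcases h with rfl | rfl
  · exact Or.inl rfl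
  · exact Or.inr (by rw [mul_assoc, hu, mul_one])

theorem R.trans {u p q r : G} (hu : u * u = 1) (h : R u p q) (h' : R u q r) : R u p r := by
  rcases h with rfl | rfl
  · exact h'
  · rcases h' with rfl | rfl
    · exact Or.inr rfl
    · exact Or.inl (by rw [mul_assoc, hu, mul_one])

theorem R.left {u p q : G} (h : R u p q) (c : G) : R u (c * p) (c * q) := by
  rcases h with rfl | rfl
  · exact Or.inl rfl
  · exact Or.inr (mul_assoc _ _ _).symm

theorem R.right {u p q c : G} (h : R u p q) (hc : c * u = u * c) : R u (p * c) (q * c) := by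
  rcases h with rfl | rfl
  · exact Or.inl rfl
  · exact Or.inr (by rw [mul_assoc, ← hc, mul_assoc])

theorem inv_comm {u c : G} (hc : c * u = u * c) : c⁻¹ * u = u * c⁻¹ :=
  (Commute.inv_left hc).eq

theorem dih_mod [Finite G] (hD : DihStmt.{u}) {u a v : G} (hu : u * u = 1) (ha : a * a = 1)
    (hv : v * v = 1) (hau : a * u = u * a) (hvu : v * u = u * v) :
    (∃ d, d * u = u * d ∧ R u (d * a * d⁻¹) v) ∨ ∃ w d, d * u = u * d ∧ ¬ R u w 1 ∧
      R u (w * a) (a * w) ∧ R u (w * v) (v * w) ∧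
      (R u (w * a) (d * a * d⁻¹) ∨ R u (w * v) (d * a * d⁻¹)) := by
  have mem : ∀ {c : G}, c ∈ centralizer ({u} : Set G) ↔ c * u = u * c :=
    mem_centralizer_singleton_iff
  let Y := centralizer ({u} : Set G)
  let u' : Y := ⟨u, mem.mpr rfl⟩
  have hn : (zpowers u').Normal := ⟨fun n hn g => by
    have : Commute g u' := Subtype.ext (mem.mp g.2)
    obtain ⟨k, rfl⟩ := hn
    rw [(this.zpow_right k).eq, mul_inv_cancel_right]
    exact ⟨k, rfl⟩⟩
  let π := QuotientGroup.mk' (zpowers u')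
  have key : ∀ p q : Y, π p = π q ↔ R u p q := by
    intro p q
    rw [eq_comm, QuotientGroup.mk'_apply, QuotientGroup.mk'_apply, QuotientGroup.eq]
    constructor
    · rintro ⟨k, hk⟩
      have hk' : u ^ k = (q : G)⁻¹ * p := congrArg Subtype.val hk
      have h2 : u ^ (2 : ℤ) = 1 := by rw [zpow_two, hu]
      rcases Int.even_or_odd' k with ⟨j, rfl | rfl⟩
      · rw [zpow_mul, h2, one_zpow, eq_comm, inv_mul_eq_one] at hk'
        exact Or.inl hk'.symm
      · rw [zpow_add, zpow_mul, h2, one_zpow, one_mul, zpow_one, eq_inv_mul_iff_mul_eq] at hk'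
        exact Or.inr hk'.symm
    · rintro (h | h)
      · rw [Subtype.ext h, inv_mul_cancel]
        exact one_mem _
      · have : q⁻¹ * p = u' := Subtype.ext (by
          change (q : G)⁻¹ * p = u
          rw [h, inv_mul_cancel_left])
        rw [this]
        exact mem_zpowers _
  let a' : Y := ⟨a, mem.mpr hau⟩
  let v' : Y := ⟨v, mem.mpr hvu⟩
  have ha' : π a' * π a' = 1 := by rw [← map_mul, show a' * a' = 1 from Subtype.ext ha, map_one]
  have hv' : π v' * π v' = 1 := by rw [← map_mul, show v' * v' = 1 from Subtype.ext hv, map_one]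
  rcases hD (π a') (π v') ha' hv' with ⟨d, hd⟩ | ⟨w, d, hw, h1, h2, h3⟩
  · obtain ⟨d, rfl⟩ := QuotientGroup.mk'_surjective (zpowers u') d
    exact Or.inl ⟨d, mem.mp d.2, (key (d * a' * d⁻¹) v').mp (by rw [map_mul, map_mul, map_inv]; exact hd)⟩
  · obtain ⟨d, rfl⟩ := QuotientGroup.mk'_surjective (zpowers u') d
    obtain ⟨w, rfl⟩ := QuotientGroup.mk'_surjective (zpowers u') w
    refine Or.inr ⟨w, d, mem.mp d.2, fun h => hw.2 (((key w 1).mpr h).trans (map_one π)),
      (key (w * a') (a' * w)).mp (by rw [map_mul, map_mul]; exact h1),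
      (key (w * v') (v' * w)).mp (by rw [map_mul, map_mul]; exact h2), ?_⟩
    rcases h3 with h | h
    · exact Or.inl ((key (w * a') (d * a' * d⁻¹)).mp (by
        rw [map_mul, map_mul, map_mul, map_inv]; exact h))
    · exact Or.inr ((key (w * v') (d * a' * d⁻¹)).mp (by
        rw [map_mul, map_mul, map_mul, map_inv]; exact h))

/-- `u` centralizes `M`. -/
def Cen (u : G) (M : Subgroup G) : Prop := ∀ m ∈ M, u * m = m * u

theorem pr_mul {M : Subgroup G} {u c u' c' : G} (h : Pr M u c) (h' : Pr M u' c') :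
    Pr M (u * u') (c * c') := by
  refine ⟨M.mul_mem h.1 h'.1, fun m hm => ?_⟩
  have := h.2 _ (M.mul_mem (M.mul_mem h'.1 hm) (M.inv_mem h'.1))
  calc u * u' * m * (u * u')⁻¹ = u * (u' * m * u'⁻¹) * u⁻¹ := by group
    _ = c * c' * m * (c * c')⁻¹ := by rw [h'.2 m hm, this]; group

theorem pr_self {M : Subgroup G} {a : G} (h : a ∈ M) : Pr M a a := ⟨h, fun _ _ => rfl⟩

theorem pr_one {M : Subgroup G} {u : G} : Pr M u 1 ↔ Cen u M := by
  refine ⟨fun h m hm => ?_, fun h => ⟨M.one_mem, fun m hm => ?_⟩⟩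
  · have := h.2 m hm
    rwa [one_mul, inv_one, mul_one, mul_inv_eq_iff_eq_mul] at this
  · rw [h m hm]; group

theorem pr_comm {M : Subgroup G} {u c m : G} (h : Pr M u c) (hm : m ∈ M) (hc : c * m = m * c) :
    m * u = u * m := by
  have := h.2 m hm
  rw [hc, mul_inv_cancel_right, mul_inv_eq_iff_eq_mul] at this
  exact this.symm

theorem pr_cj {M : Subgroup G} {u c d : G} (h : Pr M u c) (hd : d * u = u * d) :
    Pr (cj d M) u (d * c * d⁻¹) := by
  refine ⟨cj_mem h.1, fun m hm => ?_⟩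
  have := h.2 _ (mem_cj.mp hm)
  calc u * m * u⁻¹ = d * (d⁻¹ * u * m * (d⁻¹ * u)⁻¹) * d⁻¹ := by group
    _ = d * (u * (d⁻¹ * m * d) * u⁻¹) * d⁻¹ := by rw [inv_comm hd]; group
    _ = _ := by rw [this]; group

theorem Cen.mul {M : Subgroup G} {u u' : G} (h : Cen u M) (h' : Cen u' M) : Cen (u * u') M :=
  pr_one.mp (by simpa using pr_mul (pr_one.mpr h) (pr_one.mpr h'))

end Mod

section Wt

variable {G : Type u} {Ω : Type v} [Group G] [Finite G] [MulAction G Ω] {S : S0 G Ω}

variable (S) in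
/-- The components at `z` moved by `u`. -/
def supp (z : Ω) (u : G) : Set (Subgroup G) := {M | S.C z M ∧ ¬ Cen u M}

variable (S) in
/-- The weight. -/
noncomputable def wt (z : Ω) (u : G) : ℕ := (supp S z u).ncard

theorem wt_le {z : Ω} {e u : G} (h : supp S z e ⊆ supp S z u) : wt S z e ≤ wt S z u :=
  Set.ncard_le_ncard h

theorem wt_cj {z : Ω} {u d : G} (hd : d * u = u * d) : wt S (d • z) u ≤ wt S z u := by
  refine le_trans (Set.ncard_le_ncard (t := cj d '' supp S z u) fun M hM => ?_)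
    (Set.ncard_image_le (Set.toFinite _))
  refine ⟨cj d⁻¹ M, ⟨?_, fun h => hM.2 ?_⟩, cj_cj_inv d M⟩
  · have := S.conj d⁻¹ hM.1
    rwa [inv_smul_smul] at this
  · have := pr_cj (pr_one.mpr h) hd
    rw [cj_cj_inv, mul_one, mul_inv_cancel] at this
    exact pr_one.mp this

omit [Finite G] in
theorem cen_of_ne {z : Ω} {M M' : Subgroup G} {a : G} (hM : S.C z M) (hM' : S.C z M')
    (h : M' ≠ M) (ha : a ∈ M') : Cen a M := fun m hm => S.comm hM' hM h a ha m hm

variable (K : S.PK)
include K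

omit [Finite G] in
theorem mem_supp {z : Ω} {M : Subgroup G} {u c : G} (hM : S.C z M) (h : Pr M u c) (hc : c ≠ 1) :
    M ∈ supp S z u := ⟨hM, fun h' => hc (K.uq hM h (pr_one.mpr h'))⟩

omit [Finite G] in
theorem pr_sq {z : Ω} {M : Subgroup G} {u c : G} (hM : S.C z M) (h : Pr M u c) (hu : u * u = 1) :
    c * c = 1 := by
  have := pr_mul h h
  rw [hu] at this
  exact K.uq hM this (pr_self M.one_mem)

omit [Finite G] in
theorem mem_N {z : Ω} {u d : G} (h : u ∈ S.N z) : d * u * d⁻¹ ∈ S.N (d • z) := by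
  rw [← K.cjN]
  exact cj_mem h

omit [Finite G] in
theorem mem_N' {z : Ω} {u d : G} (h : u ∈ S.N z) (hd : d * u = u * d) : u ∈ S.N (d • z) := by
  have := mem_N K (d := d) h
  rwa [hd, mul_inv_cancel_right] at this

omit [Finite G] in
theorem exists_comp {z : Ω} {u : G} (h : u ∈ S.N z) (h1 : u ≠ 1) :
    ∃ M c, S.C z M ∧ Pr M u c ∧ c ≠ 1 := by
  by_contra hn
  refine h1 (K.inj h fun M hM => ?_)
  obtain ⟨c, hc⟩ := K.ex hM h
  by_cases hc1 : c = 1
  · exact pr_one.mp (hc1 ▸ hc)
  · exact absurd ⟨M, c, hM, hc, hc1⟩ hn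

theorem eq_or_lt {z : Ω} {u e : G} (hu : u ∈ S.N z) (he : e ∈ S.N z)
    (h : ∀ M, S.C z M → Cen e M ∨ ∃ c, Pr M u c ∧ Pr M e c) : e = u ∨ wt S z e < wt S z u := by
  have h1 : supp S z e ⊆ supp S z u := by
    intro M hM
    rcases h M hM.1 with h' | ⟨c, h1, h2⟩
    · exact absurd h' hM.2
    · exact mem_supp K hM.1 h1 fun hc => hM.2 (pr_one.mp (hc ▸ h2))
  by_cases h2 : supp S z u ⊆ supp S z e
  · left
    rw [← inv_mul_eq_one]
    refine K.inj (mul_mem (inv_mem he) hu) fun M hM m hm => ?_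
    have h3 : u * m * u⁻¹ = e * m * e⁻¹ := by
      rcases h M hM with h' | ⟨c, h1, h2⟩
      · have h'' : Cen u M := by_contra fun hn => (h2 ⟨hM, hn⟩).2 h'
        rw [h' m hm, h'' m hm, mul_inv_cancel_right, mul_inv_cancel_right]
      · rw [h1.2 m hm, h2.2 m hm]
    calc e⁻¹ * u * m = e⁻¹ * (u * m * u⁻¹) * u := by group
      _ = _ := by rw [h3]; group
  · exact Or.inr (Set.ncard_lt_ncard ⟨h1, h2⟩)

theorem wt_mem {z : Ω} {M : Subgroup G} {e c : G} (hM : S.C z M) (he : e ∈ M) (hc : c ∈ M)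
    (hc1 : c ≠ 1) : wt S z e ≤ wt S z c := by
  refine wt_le fun M' hM' => ?_
  by_cases h : M = M'
  · exact h ▸ mem_supp K hM (pr_self hc) hc1
  · exact absurd (cen_of_ne hM'.1 hM h he) hM'.2

theorem comp_lt {z : Ω} {M : Subgroup G} {u c : G} (hu : u ∈ S.N z) (hM : S.C z M) (h : Pr M u c) :
    c = u ∨ wt S z c < wt S z u := by
  refine eq_or_lt K hu (K.le hM h.1) fun M' hM' => ?_
  by_cases e : M = M'
  · exact Or.inr ⟨c, e ▸ h, e ▸ pr_self h.1⟩
  · exact Or.inl (cen_of_ne hM' hM e h.1)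

theorem comp2_lt {z : Ω} {M M' : Subgroup G} {u c c' : G} (hu : u ∈ S.N z) (hM : S.C z M)
    (hM' : S.C z M') (hne : M ≠ M') (h : Pr M u c) (h' : Pr M' u c') :
    c * c' = u ∨ wt S z (c * c') < wt S z u := by
  refine eq_or_lt K hu (mul_mem (K.le hM h.1) (K.le hM' h'.1)) fun T hT => ?_
  by_cases e : M = T
  · subst e
    exact Or.inr ⟨c, h, by
      simpa using pr_mul (pr_self h.1) (pr_one.mpr (cen_of_ne hM hM' hne.symm h'.1))⟩
  · by_cases e' : M' = T
    · subst e'
      exact Or.inr ⟨c', h', by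
        simpa using pr_mul (pr_one.mpr (cen_of_ne hM' hM hne h.1)) (pr_self h'.1)⟩
    · exact Or.inl ((cen_of_ne hT hM e h.1).mul (cen_of_ne hT hM' e' h'.1))

end Wt

theorem la (hS : SimStmt.{u}) (hD : DihStmt.{u}) (hP : ParStmt.{u, v}) : LaStmt.{u, v} := by
  intro G Ω _ _ _ _ S K hO
  suffices H : ∀ m x y u, wt S x u = m → Inv u → u ∈ S.N x → u ∈ S.N y → x = y from
    fun x y t => H _ x y t rfl
  intro m
  induction m using Nat.strong_induction_on with
  | _ m ih =>
  intro x y u hm hu hx hy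
  by_contra hxy
  have uu := hu.1
  have f1 : ∀ z e c, u ∈ S.N z → e ∈ S.N z → e * e = 1 → e * u = u * e → ¬ R u e 1 →
      (wt S z e < m ∨ wt S z (e * u) < m) → c * u = u * c → R u (c * e * c⁻¹) e → c • z = z := by
    intro z e c hz he ee eu e1 hw cu hc
    have h1 : c * e * c⁻¹ ∈ S.N z := by
      rcases hc with h | h <;> rw [h]
      · exact he
      · exact mul_mem he hz
    have fin : ∀ e' : G, H45.On.Inv e' → e' ∈ S.N z → wt S z e' < m → c * e' * c⁻¹ ∈ S.N z → c • z = z := by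
      intro e' h2 h3 h4 h5
      have h6 := mem_N K (d := c⁻¹) h5
      rw [show c⁻¹ * (c * e' * c⁻¹) * c⁻¹⁻¹ = e' by group] at h6
      have := ih _ h4 z _ e' rfl h2 h3 h6
      rw [eq_inv_smul_iff] at this
      exact this
    rcases hw with hw | hw
    · exact fin e ⟨ee, fun h => e1 (Or.inl h)⟩ he hw h1
    · refine fin (e * u) ⟨?_, fun h => e1 (Or.inr ?_)⟩ (mul_mem he hz) hw ?_
      · rw [mul_assoc, ← mul_assoc u, ← eu, mul_assoc, uu, mul_one, ee]
      · rw [one_mul, ← mul_one e, ← uu, ← mul_assoc, h, one_mul]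
      · rw [show c * (e * u) * c⁻¹ = c * e * c⁻¹ * (c * u * c⁻¹) by group, cu, mul_inv_cancel_right]
        exact mul_mem h1 hz
  -- components of `u` are involutions different from `u`
  have cinv : ∀ {z M c}, S.C z M → Pr M u c → c ≠ 1 → Inv c ∧ c * u = u * c ∧ ¬ R u c 1 := by
    intro z M c hM hc c1
    have hi : Inv c := ⟨pr_sq K hM hc uu, c1⟩
    refine ⟨hi, pr_comm hc hc.1 rfl, ?_⟩
    rintro (h | h)
    · exact c1 h
    · rw [one_mul] at h
      subst h
      exact hxy ((hO _ _ _ _ hM hc.1 hi (K.fx x _ hx)).trans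
        (hO _ _ _ _ hM hc.1 hi (K.fx y _ hy)).symm)
  obtain ⟨c0, hc0, rfl⟩ := hP (centralizer ({u} : Set G)) {z | u ∈ S.N z}
    (fun c hc z hz => mem_N' K hz (mem_centralizer_singleton_iff.mp hc))
    (fun z hz => by
      obtain ⟨M, c, hM, hc, c1⟩ := exists_comp K hz hu.2
      obtain ⟨h1, h2, -⟩ := cinv hM hc c1
      exact ⟨c, mem_centralizer_singleton_iff.mpr h2, h1.1, S.fx hM c hc.1,
        fun z' _ h => hO _ _ _ _ hM hc.1 h1 h⟩) x hx y hy
  replace hc0 := mem_centralizer_singleton_iff.mp hc0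
  obtain ⟨M1, u1, hM1, hu1, u11⟩ := exists_comp K hx hu.2
  obtain ⟨iu1, -, ru1⟩ := cinv hM1 hu1 u11
  have lt1 : wt S x u1 < m := by
    rcases comp_lt K hx hM1 hu1 with h | h
    · exact absurd (Or.inr (by rw [one_mul, h])) ru1
    · exact hm ▸ h
  obtain ⟨v, hv, iv, vu1, cv⟩ := (hS M1 (S.simple hM1) (S.nab hM1)).2.1 u1 hu1.1 iu1
  have vu : v * u = u * v := pr_comm hu1 hv cv
  have wy : wt S (c0 • x) u ≤ m := hm ▸ wt_cj hc0
  have hMa := S.conj c0 hM1
  have ha := pr_cj hu1 hc0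
  have a1 : c0 * u1 * c0⁻¹ ≠ 1 := fun h => u11 (by simpa using h)
  generalize c0 • x = y at *
  generalize cj c0 M1 = Ma at *
  generalize c0 * u1 * c0⁻¹ = a at *
  obtain ⟨ia, au, -⟩ := cinv hMa ha a1
  have conj : ∀ d, d * u = u * d → ∃ z M', u ∈ S.N z ∧ wt S z u ≤ m ∧ S.C z M' ∧
      Pr M' u (d * a * d⁻¹) ∧ d * a * d⁻¹ ≠ 1 := fun d hd =>
    ⟨d • y, cj d Ma, mem_N' K hy hd, (wt_cj hd).trans wy, S.conj d hMa, pr_cj ha hd,
      fun h => a1 (by simpa using h)⟩
  rcases dih_mod hD uu ia.1 iv.1 au vu with ⟨d, hd, h⟩ | ⟨w, d, hd, w1, wa, wv, h⟩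
  · obtain ⟨z, M', hz, -, hM', ha', a1'⟩ := conj d hd
    generalize d * a * d⁻¹ = a' at *
    obtain ⟨ia', -, -⟩ := cinv hM' ha' a1'
    have hxz : x = z := by
      refine hO _ _ _ _ hM' ha'.1 ia' ?_
      rcases h with h | h <;> rw [h]
      · exact S.fx hM1 v hv
      · rw [mul_smul, K.fx x u hx, S.fx hM1 v hv]
    subst hxz
    by_cases e : M' = M1
    · subst e
      have e1 := K.uq hM1 ha' hu1
      rcases h with h | h
      · exact vu1 (h.symm.trans e1)
      · have e2 := pr_mul (pr_self hv) hu1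
        rw [← h] at e2
        have e3 := K.uq hM1 e2 (pr_self ha'.1)
        rw [e1] at e3
        exact iv.2 (by simpa using e3)
    · have e1 := pr_one.mpr (cen_of_ne hM1 hM' e ha'.1)
      rcases h with h | h
      · exact iv.2 (K.uq hM1 (pr_self hv) (h ▸ e1))
      · have e2 := pr_mul (pr_self hv) hu1
        rw [← h] at e2
        have e3 := K.uq hM1 e2 e1
        exact vu1 (by rw [← mul_one v, ← iu1.1, ← mul_assoc, e3, one_mul])
  · obtain ⟨z, M', hz, wz, hM', ha', a1'⟩ := conj d hd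
    generalize d * a * d⁻¹ = a' at *
    obtain ⟨ia', au', ra'⟩ := cinv hM' ha' a1'
    have lt' : wt S z a' < m := by
      rcases comp_lt K hz hM' ha' with h | h
      · exact absurd (Or.inr (by rw [one_mul, h])) ra'
      · exact h.trans_le wz
    -- the common part of the two cases
    have st : ∀ b c, b * b = 1 → b * u = u * b → c * u = u * c → R u (w * b) (b * w) →
        R u (w * c) (c * w) → R u (w * b) a' → b • z = z ∧ ¬ R u (a' * b) 1 ∧
        R u (c * (a' * b) * c⁻¹) (a' * b) := by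
      intro b c bb bu cu wb wc h
      have h1 : R u w (a' * b) := by
        have := h.right bu
        rwa [mul_assoc, bb, mul_one] at this
      refine ⟨f1 z a' b hz (K.le hM' ha'.1) ia'.1 au' ra' (Or.inl lt') bu ?_,
        fun h' => w1 (h1.trans uu h'), ?_⟩
      · have h2 := ((h.symm uu).left b).right (inv_comm bu)
        rw [show b * (w * b) * b⁻¹ = b * w by group] at h2
        exact (h2.trans uu (wb.symm uu)).trans uu h
      · have h2 := ((h1.symm uu).left c).right (inv_comm cu)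
        have h3 := (wc.symm uu).right (inv_comm cu)
        rw [mul_inv_cancel_right] at h3
        exact (h2.trans uu h3).trans uu h1
    have sq : ∀ b, b * b = 1 → a' * b = b * a' → a' * b * (a' * b) = 1 := fun b bb h => by
      rw [mul_assoc, ← mul_assoc b, ← h, mul_assoc, bb, mul_one, ia'.1]
    have cm : ∀ b, b * u = u * b → a' * b * u = u * (a' * b) := fun b h => by
      rw [mul_assoc, h, ← mul_assoc, au', mul_assoc]
    rcases h with h | h
    · obtain ⟨h1, h2, h3⟩ := st a v ia.1 au vu wa wv h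
      have hzy : z = y := hO _ _ _ _ hMa ha.1 ia h1
      subst hzy
      by_cases e : M' = Ma
      · subst e
        rw [K.uq hM' ha' ha, ia.1] at h2
        exact h2 (Or.inl rfl)
      · rcases comp2_lt K hz hM' hMa e ha' ha with h4 | h4
        · exact h2 (Or.inr (by rw [h4, one_mul]))
        · exact hxy (hO _ _ _ _ hM1 hv iv (f1 z _ v hz (mul_mem (K.le hM' ha'.1) (K.le hMa ha.1))
            (sq a ia.1 (S.comm hM' hMa e _ ha'.1 _ ha.1)) (cm a au) h2 (Or.inl (h4.trans_le wz))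
            vu h3)).symm
    · obtain ⟨h1, h2, h3⟩ := st v a iv.1 vu au wv wa h
      have hzx : z = x := hO _ _ _ _ hM1 hv iv h1
      subst hzx
      have fin : a' * v = v * a' → (wt S z (a' * v) < m ∨ wt S z (a' * v * u) < m) → False :=
        fun h4 h5 => hxy (hO _ _ _ _ hMa ha.1 ia (f1 z _ a hz
          (mul_mem (K.le hM' ha'.1) (K.le hM1 hv)) (sq v iv.1 h4) (cm v vu) h2 h5 au h3))
      by_cases e : M' = M1
      · subst e
        exact fin (by rw [K.uq hM' ha' hu1, cv])
          (Or.inl ((wt_mem K hM' (mul_mem ha'.1 hv) hu1.1 u11).trans_lt lt1))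
      · have h4 := S.comm hM' hM1 e _ ha'.1 _ hv
        refine fin h4 ?_
        rcases comp2_lt K hz hM' hM1 e ha' hu1 with h5 | h5
        · right
          rw [← h5, h4, mul_assoc, ← mul_assoc a', ia'.1, one_mul]
          exact (wt_mem K hM1 (mul_mem hv hu1.1) hu1.1 u11).trans_lt lt1
        · refine Or.inl (lt_of_le_of_lt (wt_le fun T hT => ?_) (hm ▸ h5))
          by_cases e1 : M' = T
          · subst e1
            exact mem_supp K hM' (c := a') (by
              simpa using pr_mul (pr_self ha'.1) (pr_one.mpr (cen_of_ne hM' hM1 (Ne.symm e) hu1.1)))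
              a1'
          · by_cases e2 : M1 = T
            · subst e2
              exact mem_supp K hM1 (c := u1) (by
                simpa using pr_mul (pr_one.mpr (cen_of_ne hM1 hM' e ha'.1)) (pr_self hu1.1)) u11
            · exact absurd ((cen_of_ne hT.1 hM' e1 ha'.1).mul (cen_of_ne hT.1 hM1 e2 hv)) hT.2

end Cfsg.Agent.H76.OnLa
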