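import Cfsg.Agent.H76.OCount
import Cfsg.Agent.H77.ElusImp2
import Cfsg.Agent.H28.EloBr

/-! Numbers of classes of elements of prime order different from the characteristic. -/

namespace Cfsg.Agent.H76

universe u v w

open H77 (Per Unif)

section Comb

theorem card_multiset_fin (T k : ℕ) :
    Nat.card {w : Multiset (Fin T) // Multiset.card w = k} = T.multichoose k := by
  exact (Sym.natCard_sym_eq_multichoose (α := Fin T) k).trans (by simp)

theorem card_multiset_le (T K : ℕ) (P : ℕ → Prop) [DecidablePred P] :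
    Nat.card {w : Multiset (Fin T) // Multiset.card w ≤ K ∧ P (Multiset.card w)} =
      ∑ k ∈ (Finset.range (K + 1)).filter P, T.multichoose k := by
  have : ∀ k, Finite {w : Multiset (Fin T) // Multiset.card w = k} := fun k =>
    inferInstanceAs (Finite (Sym (Fin T) k))
  rw [← Finset.sum_coe_sort]
  simp only [← card_multiset_fin]
  rw [← Nat.card_sigma]
  exact Nat.card_congr
    { toFun w := ⟨⟨Multiset.card w.1, by simpa [Nat.lt_succ_iff] using w.2⟩, w.1, rfl⟩
      invFun x := ⟨x.2.1, by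
        have := Finset.mem_filter.1 x.1.2
        rw [x.2.2]
        exact ⟨Nat.lt_succ_iff.1 (Finset.mem_range.1 this.1), this.2⟩⟩
      left_inv _ := rfl
      right_inv := by
        rintro ⟨⟨k, hk⟩, w, hw⟩
        obtain rfl : Multiset.card w = k := hw
        rfl }

theorem sum_multichoose_pos (T K : ℕ) :
    ∑ k ∈ (Finset.range (K + 1)).filter (0 < ·), T.multichoose k = (K + T).choose T - 1 := by
  rw [← Nat.sum_range_multichoose, Finset.sum_filter, Finset.sum_range_succ',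
    Finset.sum_range_succ' (fun i => T.multichoose i)]
  simp

theorem sum_multichoose_pos' {T : ℕ} (hT : 0 < T) (K : ℕ) (E : Prop) [Decidable E]
    (hK : E → 0 < K) : ∑ k ∈ (Finset.range (K + 1)).filter (fun k => 0 < k ∧ (k = K → ¬ E)),
      T.multichoose k = (K + T).choose T - 1 - if E then (K + T - 1).choose (T - 1) else 0 := by
  split_ifs with h
  · rw [← sum_multichoose_pos, Finset.sum_filter, Finset.sum_filter, Finset.sum_range_succ,
      Finset.sum_range_succ, if_neg (by simp [h]), if_pos (hK h), Nat.multichoose_eq,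
      add_comm T, Nat.choose_symm_of_eq_add (show K + T - 1 = K + (T - 1) by omega),
      Nat.add_sub_cancel, add_zero]
    exact Finset.sum_congr rfl fun k hk => by simp [(Finset.mem_range.1 hk).ne]
  · simp [h, sum_multichoose_pos]

end Comb

variable {L : Type w} [Field L] {r d T n : ℕ} [hr : Fact r.Prime] {Q : ℤ}

theorem per_of_pow_eq_one (hd : orderOf (Q : ZMod r) = d) {α : Lˣ} (h : α ^ r = 1) (h1 : α ≠ 1) :
    Per Q α d := fun j => by
  rw [← hd, orderOf_dvd_iff_pow_eq_one, ← mul_inv_eq_one, ← zpow_sub_one,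
    ← orderOf_dvd_iff_zpow_eq_one, orderOf_eq_prime h h1, ← ZMod.intCast_zmod_eq_zero_iff_dvd]
  push_cast
  exact sub_eq_zero

variable [IsAlgClosed L] {p : ℕ} [Fact p.Prime] [CharP L p]

theorem exists_orbit_param (hrp : r ≠ p) (hd : orderOf (Q : ZMod r) = d) (h0 : 0 < d)
    (hT : T * d = r - 1) : ∃ Φ : Multiset (Fin T) → Multiset (Lˣ × ℕ), Function.Injective Φ ∧
      (∀ w, Adm Q (d * Multiset.card w) (Φ w) ∧ ∀ x ∈ Φ w, x.2 = 1 ∧ x.1 ^ r = 1 ∧ x.1 ≠ 1) ∧
      ∀ k s, Adm Q k s → (∀ x ∈ s, x.2 = 1 ∧ x.1 ^ r = 1 ∧ x.1 ≠ 1) → ∃ w, Φ w = s := by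
  classical
  have : NeZero (r : L) := ⟨H28.cast_ne_zero_of_ne hrp⟩
  have : NeZero r := ⟨hr.out.ne_zero⟩
  have : Fintype (rootsOfUnity r L : Set Lˣ) := Fintype.ofFinite (rootsOfUnity r L)
  let X : Finset Lˣ := (rootsOfUnity r L : Set Lˣ).toFinset.erase 1
  have hX : ∀ α, α ∈ X ↔ α ^ r = 1 ∧ α ≠ 1 := fun α => by simp [X, and_comm, mem_rootsOfUnity]
  have hc : X.card = r - 1 := by
    rw [Finset.card_erase_of_mem (by simp), Set.toFinset_card, ← Nat.card_eq_fintype_card]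
    exact congrArg (· - 1) (HasEnoughRootsOfUnity.natCard_rootsOfUnity L r)
  have hp : ∀ α ∈ X, Per Q α d := fun α h => per_of_pow_eq_one hd ((hX α).1 h).1 ((hX α).1 h).2
  have h1 : ∀ α ∈ X, ∀ x ∈ orb Q α d 1, x.2 = 1 ∧ x.1 ∈ X ∧ orb Q x.1 d 1 = orb Q α d 1 :=
    fun α h x hx => by
      obtain ⟨i, -, rfl⟩ := mem_orb.1 hx
      refine ⟨rfl, (hX _).2 ⟨by rw [← zpow_natCast, zpow_comm, zpow_natCast, ((hX α).1 h).1,
        one_zpow], fun k => ((hX α).1 h).2 ?_⟩, orb_shift (hp α h).pow_self 1 i⟩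
      have k1 := self_mem_orb Q α h0 1
      rw [← orb_shift (hp α h).pow_self 1 i, show α ^ Q ^ i = 1 from k] at k1
      obtain ⟨j, -, k2⟩ := mem_orb.1 k1
      simpa using k2
  let Y := X.image fun α => orb Q α d 1
  have hY : Y.card = T := by
    refine Nat.eq_of_mul_eq_mul_right h0 ?_
    rw [hT, ← hc, Finset.card_eq_sum_card_image (fun α => orb Q α d 1) X, Finset.sum_const_nat]
    intro o ho
    obtain ⟨α, hα, rfl⟩ := Finset.mem_image.1 ho
    refine Eq.trans ?_ ((Multiset.toFinset_card_of_nodup ((hp α hα).nodup_orb 1)).trans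
      (card_orb Q α d 1))
    refine Finset.card_nbij (fun β => (β, 1)) (fun β hβ => ?_) (fun _ _ _ _ h => (Prod.mk.inj h).1)
      fun x hx => ?_
    · simp only [Finset.coe_filter, Set.mem_setOf_eq] at hβ
      simpa [← hβ.2] using self_mem_orb Q β h0 1
    · obtain ⟨k1, k2, k3⟩ := h1 α hα x (by simpa using hx)
      exact ⟨x.1, by simp [k2, k3], Prod.ext rfl k1.symm⟩
  let e : Fin T ≃ Y := (Finset.equivFinOfCardEq hY).symm
  have h2 : ∀ j, ∃ α ∈ X, orb Q α d 1 = e j := fun j => Finset.mem_image.1 (e j).2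
  choose ζ h3 h4 using h2
  refine ⟨fun w => (w.map fun j => orb Q (ζ j) d 1).sum, fun w w' h => ?_, fun w => ?_,
    fun k s hs hs' => ?_⟩
  · have key : ∀ (w : Multiset (Fin T)) j, (w.map fun j => orb Q (ζ j) d 1).sum.count (ζ j, 1) =
        w.count j := fun w j => by
      induction w using Multiset.induction_on with
      | empty => simp
      | cons i w ih =>
        rw [Multiset.map_cons, Multiset.sum_cons, Multiset.count_add, ih, Multiset.count_cons,
          add_comm]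
        congr 1
        split_ifs with hij
        · rw [hij]
          exact Multiset.count_eq_one_of_mem ((hp _ (h3 i)).nodup_orb 1) (self_mem_orb _ _ h0 1)
        · exact Multiset.count_eq_zero.2 fun k => hij (e.injective (Subtype.ext (by
            rw [← h4, ← h4]; exact (h1 _ (h3 i) _ k).2.2)))
    exact Multiset.ext.2 fun j => by rw [← key, ← key]; exact congrArg _ h
  · induction w using Multiset.induction_on with
    | empty => simpa using Adm.zero Q
    | cons i w ih =>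
      simp only [Multiset.map_cons, Multiset.sum_cons, Multiset.card_cons, Multiset.mem_add]
      refine ⟨((adm_orb (hp _ (h3 i)).pow_self one_pos).add ih.1).cast (by ring), ?_⟩
      rintro x (hx | hx)
      · exact ⟨(h1 _ (h3 i) x hx).1, (hX _).1 (h1 _ (h3 i) x hx).2.1⟩
      · exact ih.2 x hx
  · have hu : Unif Q d k s := ⟨hs, fun x hx => (hs' x hx).1, fun x hx =>
      hp _ ((hX _).2 (hs' x hx).2)⟩
    refine hu.induction (P := fun _ s => (∀ x ∈ s, x.1 ∈ X) → ∃ w : Multiset (Fin T),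
      (w.map fun j => orb Q (ζ j) d 1).sum = s) (fun _ => ⟨0, by simp⟩)
      (fun α m t _ _ _ ih h => ?_) fun x hx => (hX _).2 (hs' x hx).2
    obtain ⟨w, rfl⟩ := ih fun x hx => h x (Multiset.mem_add.2 (Or.inr hx))
    refine ⟨e.symm ⟨_, Finset.mem_image_of_mem _
      (h _ (Multiset.mem_add.2 (Or.inl (self_mem_orb Q α h0 1))))⟩ ::ₘ w, ?_⟩
    rw [Multiset.map_cons, Multiset.sum_cons, h4, e.apply_symm_apply]

open Classical in
theorem card_prime_data (hrp : r ≠ p) (hd : orderOf (Q : ZMod r) = d) (h0 : 0 < d)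
    (hT : T * d = r - 1) (P : ℕ → Prop) [DecidablePred P] :
    Nat.card {s : Multiset (Lˣ × ℕ) // (Adm Q n s ∧ ∀ x ∈ s, x.2 = 1 ∧ x.1 ^ r = 1) ∧
      P (wt (s.filter fun x => x.1 ≠ 1) / d)} =
      ∑ k ∈ (Finset.range (n / d + 1)).filter P, T.multichoose k := by
  obtain ⟨Φ, h1, h2, h3⟩ := exists_orbit_param (L := L) hrp hd h0 hT
  rw [← card_multiset_le]
  have h4 : ∀ w m, (Φ w + Multiset.replicate m (1, 1)).filter (fun x => x.1 ≠ 1) = Φ w :=
    fun w m => by
      rw [Multiset.filter_add, Multiset.filter_eq_self.2 fun x hx => ((h2 w).2 x hx).2.2,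
        Multiset.filter_eq_nil.2 fun x hx => by simp [Multiset.eq_of_mem_replicate hx], add_zero]
  have h5 : ∀ w : Multiset (Fin T), Multiset.card w ≤ n / d → ∀ s, s = Φ w + Multiset.replicate
      (n - d * Multiset.card w) (1, 1) → Adm Q n s ∧ ∀ x ∈ s, x.2 = 1 ∧ x.1 ^ r = 1 := by
    rintro w hw _ rfl
    have := (Nat.le_div_iff_mul_le h0).1 hw
    refine ⟨((h2 _).1.add (H77.adm_of_fst_fixed (fun x hx => ?_) fun x hx => ?_)).cast ?_,
      fun x hx => ?_⟩
    · simp [Multiset.eq_of_mem_replicate hx]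
    · simp [Multiset.eq_of_mem_replicate hx]
    · rw [wt_replicate, mul_one, mul_comm d]; omega
    · rcases Multiset.mem_add.1 hx with hx | hx
      · exact ⟨((h2 _).2 x hx).1, ((h2 _).2 x hx).2.1⟩
      · simp [Multiset.eq_of_mem_replicate hx]
  refine (Nat.card_congr (Equiv.ofBijective (fun w => ⟨Φ w.1 + Multiset.replicate
    (n - d * Multiset.card w.1) (1, 1), h5 _ w.2.1 _ rfl, by
      rw [h4, (h2 _).1.wt_eq, Nat.mul_div_cancel_left _ h0]
      exact w.2.2⟩) ⟨fun w w' h => ?_, fun ⟨s, ⟨hs, hs'⟩, hP⟩ => ?_⟩)).symm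
  · have := congrArg (Multiset.filter fun x => x.1 ≠ 1) (Subtype.mk.inj h)
    rw [h4, h4] at this
    exact Subtype.ext (h1 this)
  · have k1 := (Multiset.filter_add_not (fun x => x.1 = 1) s).symm
    have k2 : s.filter (fun x => x.1 = 1) = Multiset.replicate _ (1, 1) :=
      Multiset.eq_replicate_card.2 fun x hx =>
        Prod.ext (Multiset.mem_filter.1 hx).2 (hs' x (Multiset.mem_filter.1 hx).1).1
    have k3 := H77.adm_of_add_left (k1 ▸ hs) (H77.adm_of_fst_fixed
      (fun x hx => hs.pos x (Multiset.mem_filter.1 hx).1) fun x hx => by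
        rw [(Multiset.mem_filter.1 hx).2, one_zpow])
    obtain ⟨w, hw⟩ := h3 _ _ k3 fun x hx =>
      have k := Multiset.mem_filter.1 hx
      ⟨(hs' x k.1).1, (hs' x k.1).2, k.2⟩
    have k4 := congrArg wt k1
    rw [wt_add, ← hw, (h2 w).1.wt_eq, hs.wt_eq, k2, wt_replicate, mul_one] at k4
    rw [← hw, (h2 w).1.wt_eq, Nat.mul_div_cancel_left _ h0] at hP
    refine ⟨⟨w, (Nat.le_div_iff_mul_le h0).2 (by rw [mul_comm]; omega), hP⟩, Subtype.ext ?_⟩
    change Φ w + Multiset.replicate (n - d * Multiset.card w) (1, 1) = s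
    rw [k4, Nat.add_sub_cancel, ← k2, hw, add_comm, ← k1]

omit [IsAlgClosed L] [Fact p.Prime] [CharP L p] hr in
open Classical in
theorem Adm.split_one {s : Multiset (Lˣ × ℕ)} (hs : Adm Q n s) (h : ∀ x ∈ s, x.2 = 1) :
    s = s.filter (fun x => x.1 ≠ 1) +
      Multiset.replicate (n - wt (s.filter fun x => x.1 ≠ 1)) (1, 1) ∧
    Adm Q (wt (s.filter fun x => x.1 ≠ 1)) (s.filter fun x => x.1 ≠ 1) ∧
    wt (s.filter fun x => x.1 ≠ 1) ≤ n := by
  have k1 := (Multiset.filter_add_not (fun x => x.1 = 1) s).symm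
  have k2 : s.filter (fun x => x.1 = 1) = Multiset.replicate _ (1, 1) :=
    Multiset.eq_replicate_card.2 fun x hx =>
      Prod.ext (Multiset.mem_filter.1 hx).2 (h x (Multiset.mem_filter.1 hx).1)
  have k3 := H77.adm_of_add_left (k1 ▸ hs) (H77.adm_of_fst_fixed
    (fun x hx => hs.pos x (Multiset.mem_filter.1 hx).1) fun x hx => by
      rw [(Multiset.mem_filter.1 hx).2, one_zpow])
  have k4 := congrArg wt k1
  rw [wt_add, hs.wt_eq, k2, wt_replicate, mul_one] at k4
  refine ⟨?_, k3.cast k3.wt_eq.symm, k4.trans_ge (Nat.le_add_left _ _)⟩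
  rw [k4, Nat.add_sub_cancel, ← k2, add_comm, ← k1]

omit [IsAlgClosed L] [Fact p.Prime] [CharP L p] in
open Classical in
theorem Adm.dvd_mv {s : Multiset (Lˣ × ℕ)} (hs : Adm Q n s) (hd : orderOf (Q : ZMod r) = d)
    (h : ∀ x ∈ s, x.2 = 1 ∧ x.1 ^ r = 1) : d ∣ wt (s.filter fun x => x.1 ≠ 1) :=
  Unif.dvd ⟨(hs.split_one fun x hx => (h x hx).1).2.1,
    fun x hx => (h x (Multiset.mem_filter.1 hx).1).1, fun x hx =>
      per_of_pow_eq_one hd (h x (Multiset.mem_filter.1 hx).1).2 (Multiset.mem_filter.1 hx).2⟩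

omit [IsAlgClosed L] [CharP L p] in
theorem ok_prime_iff (hrp : r ≠ p) {s : Multiset (Lˣ × ℕ)} (hs : ∀ x ∈ s, 0 < x.2) :
    OK p s r ↔ ∀ x ∈ s, x.2 = 1 ∧ x.1 ^ r = 1 :=
  ⟨fun h x hx => ⟨H77.snd_eq_one_of_pk Fact.out hr.out hrp hs h.pk x hx, (h x hx).1⟩,
    fun h x hx => ⟨(h x hx).2, by simp [(h x hx).1]⟩⟩

omit [IsAlgClosed L] [CharP L p] in
open Classical in
theorem Adm.prime_iff (hrp : r ≠ p) (hd : orderOf (Q : ZMod r) = d) (h0 : 0 < d)
    {s : Multiset (Lˣ × ℕ)} (hs : Adm Q n s) : OK p s r ∧ ¬ OK p s 1 ↔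
      (∀ x ∈ s, x.2 = 1 ∧ x.1 ^ r = 1) ∧ 0 < wt (s.filter fun x => x.1 ≠ 1) / d := by
  rw [ok_prime_iff hrp hs.pos]
  refine and_congr_right fun h => ?_
  obtain ⟨a, ha⟩ := hs.dvd_mv hd h
  rw [ha, Nat.mul_div_cancel_left _ h0, ← Nat.mul_pos_iff_of_pos_left h0, ← ha, pos_iff_ne_zero]
  refine not_congr ⟨fun k => ?_, fun k x hx => ⟨by_contra fun k1 => ?_, by simp [(h x hx).1]⟩⟩
  · rw [Multiset.filter_eq_nil.2 fun x hx => by simpa using (k x hx).1, wt_zero]
  · have := ((hs.split_one fun x hx => (h x hx).1).2.1.le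
      (Multiset.mem_filter.2 ⟨hx, by simpa using k1⟩)).trans_eq k
    have := hs.pos x hx
    omega

theorem CM.card_prime {G : Type*} [Group G] {J : G → Multiset (Lˣ × ℕ)} {δ : G →* Lˣ}
    (h : CM J δ Q n) (hJ : ∀ g, orderOf g = r ↔ OK p (J g) r ∧ ¬ OK p (J g) 1) (hrp : r ≠ p)
    (hd : orderOf (Q : ZMod r) = d) (h0 : 0 < d) (hT : T * d = r - 1) :
    Nat.card {C : ConjClasses G // ∃ g, ConjClasses.mk g = C ∧ orderOf g = r} =
      (n / d + T).choose T - 1 := by
  classical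
  rw [h.card_classes _ (fun s => OK p s r ∧ ¬ OK p s 1) hJ, ← sum_multichoose_pos, ← card_prime_data (L := L) hrp hd h0 hT]
  exact Nat.card_congr (Equiv.subtypeEquivRight fun s => by
    rw [and_assoc]; exact and_congr_right fun hs => hs.prime_iff hrp hd h0)

omit [IsAlgClosed L] [Fact p.Prime] [CharP L p] in
theorem adm_qq_iff {q i : ℕ} (hr2 : r ≠ 2) (hi : orderOf (q : ZMod r) = i) (h0 : 0 < i)
    {s : Multiset (Lˣ × ℕ)} (h : ∀ x ∈ s, x.2 = 1 ∧ x.1 ^ r = 1) :
    Adm (H28.qq q i) n s ↔ Adm q n s ∧ s.map (frob (-1)) = s := by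
  classical
  refine ⟨fun hs => ?_, fun hs => ?_⟩
  · obtain ⟨h1, h2, h3⟩ := hs.split_one fun x hx => (h x hx).1
    have h4 := H28.rd_of_adm hr2 hi h0 h2 fun x hx =>
      have k := Multiset.mem_filter.1 hx
      ⟨(h x k.1).1, (h x k.1).2, k.2⟩
    rw [h1]
    exact ⟨⟨h1 ▸ hs.pos, by simp [h4.adm.stab, frob], h1 ▸ hs.wt_eq⟩, by simp [h4.dual, frob]⟩
  · unfold H28.qq
    split_ifs
    · exact hs.1
    · simpa using H77.adm_mul hs.1 hs.2

section Groups

variable {F : Type u} [Field F] [Fintype F] [CharP F p] {i : ℕ}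

theorem card_sp_prime (hr2 : r ≠ 2) (hrp : r ≠ p) (hi : orderOf (Fintype.card F : ZMod r) = i)
    (hT : T * H28.cc i = r - 1) (m : ℕ) :
    Nat.card {C : ConjClasses (Matrix.symplecticGroup (Fin m) F) //
      ∃ g, ConjClasses.mk g = C ∧ orderOf g = r} = (2 * m / H28.cc i + T).choose T - 1 := by
  classical
  let L := AlgebraicClosure F
  have : CharP L p := charP_of_injective_algebraMap (algebraMap F _).injective p
  have h0 : 0 < i := hi ▸ H28.orderOf_card_pos hrp
  have hd := H28.orderOf_qq hr2 hi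
  rw [card_conjClasses_eq (fun g => orderOf g = r) (fun g => ujord L (H27.spToGL m F g)) fun g h hg _ =>
    ⟨fun hc => (isConj_iff_ujord_eq L _ _).1 ((H27.spToGL m F).map_isConj hc),
      fun hc => isConj_sp_of_coprime p (hg ▸ (Nat.coprime_primes hr.out Fact.out).2 hrp)
        ((isConj_iff_ujord_eq L _ _).2 hc)⟩, ← sum_multichoose_pos,
    ← card_prime_data (L := L) hrp hd (H28.cc_pos h0) hT]
  refine Nat.card_congr (Equiv.subtypeEquivRight fun s => ⟨?_, fun ⟨⟨h1, h2⟩, h3⟩ => ?_⟩)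
  · rintro ⟨g, hg, rfl⟩
    rw [← orderOf_spToGL, orderOf_eq_prime_iff_ok L p hr.out] at hg
    have h1 := fadm_ujord_sp (L := L) g
    have h2 := (adm_qq_iff hr2 hi h0 ((ok_prime_iff hrp h1.adm.pos).1 hg.1)).2 ⟨h1.adm, h1.inv⟩
    rw [h2.prime_iff hrp hd (H28.cc_pos h0)] at hg
    exact ⟨⟨h2, hg.1⟩, hg.2⟩
  · obtain ⟨h4, h5⟩ := (adm_qq_iff hr2 hi h0 h2).1 h1
    obtain ⟨g, rfl⟩ := (fadm_iff_exists_sp s).1 ⟨h4, h5, fun α hα e _ => by
      by_cases h6 : (α, e) ∈ s
      · obtain rfl : e = 1 := (h2 _ h6).1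
        obtain rfl : α = 1 := eq_one_of_odd_pow hα (hr.out.odd_of_ne_two hr2) (h2 _ h6).2
        obtain ⟨h7, -, h8⟩ := h1.split_one fun x hx => (h2 x hx).1
        rw [h7]
        simpa using (Nat.even_sub h8).2 (by
          simpa using (H28.even_cc i).trans_dvd (h1.dvd_mv hd h2))
      · simp [h6]⟩
    refine ⟨g, ?_, rfl⟩
    rw [← orderOf_spToGL, orderOf_eq_prime_iff_ok L p hr.out, h1.prime_iff hrp hd (H28.cc_pos h0)]
    exact ⟨h2, h3⟩

open QuadraticMap Module

variable {ι : Type} [Fintype ι] [DecidableEq ι] {Q : QuadraticForm F (ι → F)}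

open Classical in
theorem ujord_eq_of_mov {L : Type w} [Field L] [Algebra F L] [IsAlgClosed L]
    (hrp : r ≠ p) {g : isometryGroup F ⇑Q} (hg : H30.isoEquiv Q g ^ r = 1) {t : Multiset (Lˣ × ℕ)}
    (ht : H77.HasJOn L ((H30.isoEquiv Q g).1 : End F (ι → F)) (H30.movSp (H30.isoEquiv Q g)) t) :
    ujord L (g : GL ι F) = t + Multiset.replicate (Fintype.card ι - wt t) (1, 1) := by
  have h1 := H30.finrank_movSp_add_finrank_fixSp (H30.isoEquiv Q g)
  have h2 := H28.disjoint_fix_mov (H28.cast_ne_zero_of_ne hrp) hg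
  have h3 := ht.add_of_isCompl (H77.hasJOn_of_fixed (W := H30.fixSp (H30.isoEquiv Q g))
    fun x hx => H30.mem_fixSp.1 hx) ⟨h2.symm, codisjoint_iff.2 (Submodule.eq_top_of_finrank_eq (by
      rw [H28.finrank_sup_of_disjoint h2.symm, h1]))⟩
  rw [H77.HasJ.ujord_eq h3, ht.wt_eq, ← finrank_fintype_fun_eq_card F, ← h1, Nat.add_sub_cancel_left]

theorem card_o_prime (hQ : (polarBilin Q).Nondegenerate) (hr2 : r ≠ 2) (hrp : r ≠ p)
    (hi : orderOf (Fintype.card F : ZMod r) = i) (hT : T * H28.cc i = r - 1) :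
    Nat.card {C : ConjClasses (isometryGroup F ⇑Q) // ∃ g, ConjClasses.mk g = C ∧ orderOf g = r} =
      ∑ k ∈ (Finset.range (Fintype.card ι / H28.cc i + 1)).filter (fun k => 0 < k ∧
        (H28.cc i * k = Fintype.card ι → (H28.tpw Q + H28.ss i * k) % 2 = 0)), T.multichoose k := by
  classical
  let L := AlgebraicClosure F
  have : CharP L p := charP_of_injective_algebraMap (algebraMap F _).injective p
  have h0 : 0 < i := hi ▸ H28.orderOf_card_pos hrp
  have hd := H28.orderOf_qq hr2 hi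
  rw [card_conjClasses_eq (fun g => orderOf g = r)
    (fun g : isometryGroup F ⇑Q => ujord L (g : GL ι F)) fun g h hg _ =>
    ⟨fun hc => (isConj_iff_ujord_eq L _ _).1 ((isometryGroup F ⇑Q).subtype.map_isConj hc),
      fun hc => isConj_o_of_odd hQ p (hg ▸ hr.out.odd_of_ne_two hr2)
        (hg ▸ (Nat.coprime_primes hr.out Fact.out).2 hrp) ((isConj_iff_ujord_eq L _ _).2 hc)⟩,
    ← card_prime_data (L := L) hrp hd (H28.cc_pos h0) hT]
  refine Nat.card_congr (Equiv.subtypeEquivRight fun s => ⟨?_, fun ⟨⟨h1, h2⟩, h3, h4⟩ => ?_⟩)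
  · rintro ⟨g, hg, rfl⟩
    have h1 : H30.isoEquiv Q g ^ r = 1 := by rw [← map_pow, ← hg, pow_orderOf_eq_one, map_one]
    have h2 := H28.disjoint_fix_mov (H28.cast_ne_zero_of_ne hrp) h1
    have h3 := (H28.ndOn_fix_mov hQ h2).2
    obtain ⟨t, ht⟩ := H28.exists_hasJOn_O (L := L) hQ (H28.inv_movSp (H30.isoEquiv Q g))
    have h4 := H28.rd_of_pow hQ hrp h1 ht h3 h2
    obtain ⟨a, h5, h6⟩ := H28.free_type_elt hr2 hi h0 h1 h3 (H28.inv_movSp _) h2
    have h7 := (H28.fix_of_mov hQ h3 h5 h6 ((H28.even_cc i).mul_right a)).2.2.2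
    have h8 := ujord_eq_of_mov hrp h1 ht
    rw [← Subgroup.orderOf_coe, orderOf_eq_prime_iff_ok L p hr.out] at hg
    have h9 := adm_ujord (L := L) (g : GL ι F)
    have h10 := (adm_qq_iff hr2 hi h0 ((ok_prime_iff hrp h9.pos).1 hg.1)).2 ⟨h9, by
      rw [h8]; simp [h4.dual, frob]⟩
    rw [h10.prime_iff hrp hd (H28.cc_pos h0)] at hg
    refine ⟨⟨h10, hg.1⟩, hg.2, ?_⟩
    rw [h8, Multiset.filter_add, Multiset.filter_eq_self.2 fun x hx => (h4.mem x hx).2.2,
      Multiset.filter_eq_nil.2 fun x hx => by simp [Multiset.eq_of_mem_replicate hx], add_zero,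
      ht.wt_eq, h5, Nat.mul_div_cancel_left _ (H28.cc_pos h0), ← finrank_fintype_fun_eq_card F]
    exact h7
  · obtain ⟨h5, h6, h7⟩ := h1.split_one fun x hx => (h2 x hx).1
    obtain ⟨a, ha⟩ := h1.dvd_mv hd h2
    rw [ha, Nat.mul_div_cancel_left _ (H28.cc_pos h0)] at h4
    obtain ⟨g, h8, -, h9⟩ := H28.exists_elt_of_rd hQ hr2 hi h0 (H28.rd_of_adm hr2 hi h0
      (h6.cast ha) fun x hx =>
        have k := Multiset.mem_filter.1 hx
        ⟨(h2 x k.1).1, (h2 x k.1).2, k.2⟩) (by rwa [finrank_fintype_fun_eq_card, ← ha])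
      (by rwa [finrank_fintype_fun_eq_card])
    obtain ⟨g, rfl⟩ := (H30.isoEquiv Q).surjective g
    obtain rfl := (ujord_eq_of_mov hrp h8 h9).trans h5.symm
    refine ⟨g, ?_, rfl⟩
    rw [← Subgroup.orderOf_coe, orderOf_eq_prime_iff_ok L p hr.out,
      h1.prime_iff hrp hd (H28.cc_pos h0)]
    exact ⟨h2, h3⟩

theorem card_o_prime' (hQ : (polarBilin Q).Nondegenerate) (hr2 : r ≠ 2) (hrp : r ≠ p)
    (hi : orderOf (Fintype.card F : ZMod r) = i) (hT : T * H28.cc i = r - 1)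
    (hι : 0 < Fintype.card ι) (E : Prop) [Decidable E] (hE : E ↔ H28.cc i ∣ Fintype.card ι ∧
      (H28.tpw Q + H28.ss i * (Fintype.card ι / H28.cc i)) % 2 = 1) :
    Nat.card {C : ConjClasses (isometryGroup F ⇑Q) // ∃ g, ConjClasses.mk g = C ∧ orderOf g = r} =
      (Fintype.card ι / H28.cc i + T).choose T - 1 -
        if E then (Fintype.card ι / H28.cc i + T - 1).choose (T - 1) else 0 := by
  have h0 := H28.cc_pos (hi ▸ H28.orderOf_card_pos hrp : 0 < i)
  have := hr.out.two_le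
  rw [card_o_prime hQ hr2 hrp hi hT, ← sum_multichoose_pos' (Nat.pos_of_ne_zero fun h => by
    rw [h, zero_mul] at hT; omega) _ E fun h => Nat.div_pos (Nat.le_of_dvd hι (hE.1 h).1) h0]
  refine Finset.sum_congr (Finset.filter_congr fun k _ => and_congr_right fun _ => ?_) fun _ _ => rfl
  rw [hE]
  constructor
  · rintro h rfl ⟨h1, h2⟩
    have := h (Nat.mul_div_cancel' h1)
    omega
  · intro h h1
    rw [← h1, Nat.mul_div_cancel_left _ h0] at h
    have := h rfl
    rw [not_and] at this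
    have := this (dvd_mul_right _ _)
    omega

omit [Fact p.Prime] in
theorem half_mul_eq {t b c : ℕ} {x : ZMod r} (hx : orderOf x = c) (h0 : 0 < c) (hc : c = 2 * b)
    (ht : t * b = r - 1) : t / 2 * c = r - 1 := by
  have h1 : c ∣ r - 1 := hx ▸ ZMod.orderOf_dvd_card_sub_one fun h => by
    rw [h, orderOf_zero] at hx; omega
  rw [← ht, hc] at h1
  obtain ⟨k, rfl⟩ := Nat.dvd_of_mul_dvd_mul_right (by omega) h1
  rw [← ht, hc, Nat.mul_div_cancel_left _ two_pos]
  ring

end Groups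

end Cfsg.Agent.H76
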