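import Cfsg.Agent.H76.PrimeCount
import Cfsg.Agent.H76.ProjClass
import Cfsg.Agent.H76.NilKer

set_option autoImplicit false

namespace Cfsg.Agent.H76

universe u v w

section Comb
variable {L : Type w} [Field L] [IsAlgClosed L] {p : ℕ} [hp : Fact p.Prime] [CharP L p] {r N : ℕ}
  {Q : ℤ}

omit hp [CharP L p] in
theorem exists_units_pow_eq (hr : 0 < r) (c : Lˣ) : ∃ α : Lˣ, α ^ r = c := by
  obtain ⟨a, ha⟩ := IsAlgClosed.exists_pow_nat_eq (c : L) hr
  refine ⟨Units.mk0 a fun h => c.ne_zero (by rw [← ha, h, zero_pow hr.ne']), Units.ext ha⟩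

theorem card_units_pow_eq (hr : r.Prime) (hrp : r ≠ p) (c : Lˣ) :
    Nat.card {a : Lˣ // a ^ r = c} = r := by
  obtain ⟨α, rfl⟩ := exists_units_pow_eq hr.pos c
  obtain ⟨γ, hγ⟩ := exists_units_orderOf_eq (L := L) p (m := r) fun h =>
    hrp ((Nat.prime_dvd_prime_iff_eq hp.out hr).1 h).symm
  conv_rhs => rw [← hγ, ← Nat.card_zpowers]
  refine Nat.card_congr ((Equiv.mulLeft α⁻¹).subtypeEquiv fun a => ⟨fun h => ?_, ?_⟩)
  · obtain ⟨j, hj⟩ := exists_pow_eq_of_pow_orderOf (γ := γ) (α := α⁻¹ * a) (hγ ▸ hr.pos)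
      (by rw [hγ, mul_pow, h, inv_pow, inv_mul_cancel])
    exact ⟨j, by simpa using hj.symm⟩
  · rintro ⟨j, hj⟩
    have : (α⁻¹ * a) ^ r = 1 := by
      rw [← show γ ^ j = α⁻¹ * a from hj, ← zpow_natCast, ← zpow_mul, mul_comm, zpow_mul,
        zpow_natCast, ← hγ, pow_orderOf_eq_one, one_zpow]
    rwa [mul_pow, inv_pow, inv_mul_eq_one, eq_comm] at this

theorem card_root_multisets (hr : r.Prime) (hrp : r ≠ p) (c : Lˣ) :
    Finite {u : Multiset Lˣ // Multiset.card u = N ∧ ∀ a ∈ u, a ^ r = c} ∧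
    Nat.card {u : Multiset Lˣ // Multiset.card u = N ∧ ∀ a ∈ u, a ^ r = c} = r.multichoose N := by
  have h1 := card_units_pow_eq hr hrp c
  have : Finite {a : Lˣ // a ^ r = c} := Nat.finite_of_card_ne_zero (h1.symm ▸ hr.ne_zero)
  have h : Function.Bijective fun u : Sym {a : Lˣ // a ^ r = c} N =>
      (⟨u.1.map Subtype.val, by rw [Multiset.card_map, u.2], by simp +contextual⟩ :
        {u : Multiset Lˣ // Multiset.card u = N ∧ ∀ a ∈ u, a ^ r = c}) := by
    refine ⟨fun u v h => Subtype.ext (Multiset.map_injective Subtype.val_injective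
      (congrArg Subtype.val h)), ?_⟩
    rintro ⟨u, h2, h3⟩
    lift u to Multiset {a : Lˣ // a ^ r = c} using h3
    exact ⟨⟨u, by simpa using h2⟩, rfl⟩
  exact ⟨Finite.of_surjective _ h.2, by
    rw [← Nat.card_eq_of_bijective _ h, Sym.natCard_sym_eq_multichoose, h1]⟩

theorem card_root_nonconst (hr : r.Prime) (hrp : r ≠ p) (hN : 0 < N) (c : Lˣ) :
    Nat.card {u : Multiset Lˣ // (Multiset.card u = N ∧ ∀ a ∈ u, a ^ r = c) ∧
      ∃ a ∈ u, ∃ b ∈ u, a ≠ b} + r = r.multichoose N := by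
  obtain ⟨h1, h2⟩ := card_root_multisets (N := N) hr hrp c
  rw [← h2, ← card_and_add (fun u : Multiset Lˣ => Multiset.card u = N ∧ ∀ a ∈ u, a ^ r = c)
    fun u => ∃ a ∈ u, ∃ b ∈ u, a ≠ b]
  congr 1
  refine (card_units_pow_eq hr hrp c).symm.trans ?_
  refine Nat.card_eq_of_bijective (fun a => ⟨Multiset.replicate N a, ⟨by simp, fun b hb =>
    Multiset.eq_of_mem_replicate hb ▸ a.2⟩, by simp +contextual [Multiset.mem_replicate]⟩)
    ⟨fun a b h => Subtype.ext (Multiset.replicate_right_injective hN.ne'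
      (congrArg Subtype.val h)), ?_⟩
  rintro ⟨u, ⟨h3, h4⟩, h5⟩
  obtain ⟨a, ha⟩ := Multiset.card_pos_iff_exists_mem.1 (h3 ▸ hN)
  push Not at h5
  exact ⟨⟨a, h4 a ha⟩, Subtype.ext (Multiset.eq_replicate.2 ⟨h3, fun b hb => h5 b hb a ha⟩).symm⟩

omit [IsAlgClosed L] hp [CharP L p] in
theorem count_eq_of_map_mul [DecidableEq Lˣ] (hr : r.Prime) {z : Lˣ} (hz : z ^ r = 1) (hz1 : z ≠ 1)
    {u : Multiset Lˣ} (h : u.map (z * ·) = u) {a b : Lˣ} (hab : a ^ r = b ^ r) :
    u.count a = u.count b := by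
  have := Fact.mk hr
  have h1 := orderOf_eq_prime hz hz1
  obtain ⟨j, hj⟩ := exists_pow_eq_of_pow_orderOf (γ := z) (α := a * b⁻¹) (h1 ▸ hr.pos)
    (by rw [h1, mul_pow, hab, inv_pow, mul_inv_cancel])
  obtain rfl : a = z ^ j * b := by rw [← hj, inv_mul_cancel_right]
  clear hab hj
  induction j with
  | zero => simp
  | succ j ih =>
    rw [pow_succ', mul_assoc, ← ih]
    conv_lhs => rw [← h]
    exact Multiset.count_map_eq_count' _ _ (mul_right_injective z) _

omit [IsAlgClosed L] hp [CharP L p] in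
theorem map_mul_eq_of_map_mul (hr : r.Prime) {z z' : Lˣ} (hz : z ^ r = 1) (hz1 : z ≠ 1)
    (hz' : z' ^ r = 1) {u : Multiset Lˣ} (h : u.map (z * ·) = u) : u.map (z' * ·) = u := by
  classical
  refine (eq_map_of_count (Group.mulLeft_bijective z') fun a => ?_).symm
  exact count_eq_of_map_mul hr hz hz1 h (by rw [mul_pow, hz', one_mul])

theorem card_root_uniform (hr : r.Prime) (hrp : r ≠ p) (c : Lˣ) {z : Lˣ} (hz : z ^ r = 1)
    (hz1 : z ≠ 1) : Nat.card {u : Multiset Lˣ // (Multiset.card u = N ∧ ∀ a ∈ u, a ^ r = c) ∧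
      u.map (z * ·) = u} = if r ∣ N then 1 else 0 := by
  classical
  have h1 := card_units_pow_eq hr hrp c
  have h2 : {a : Lˣ | a ^ r = c}.Finite := Nat.finite_of_card_ne_zero (h1.symm ▸ hr.ne_zero)
  have h3 : h2.toFinset.card = r := by rw [← Set.ncard_eq_toFinset_card _ h2]; exact h1
  obtain ⟨α, hα⟩ := exists_units_pow_eq hr.pos c
  have key : ∀ u : Multiset Lˣ, (∀ a ∈ u, a ^ r = c) → u.map (z * ·) = u →
      u = u.count α • h2.toFinset.val ∧ Multiset.card u = u.count α * r := fun u h4 h5 => by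
    have : u = u.count α • h2.toFinset.val := by
      ext a
      rw [Multiset.count_nsmul]
      by_cases ha : a ^ r = c
      · rw [Multiset.count_eq_one_of_mem h2.toFinset.nodup (by simpa using ha), mul_one]
        exact count_eq_of_map_mul hr hz hz1 h5 (ha.trans hα.symm)
      · rw [Multiset.count_eq_zero_of_notMem (s := h2.toFinset.val) (by simpa using ha), mul_zero]
        exact Multiset.count_eq_zero_of_notMem fun h => ha (h4 a h)
    exact ⟨this, by conv_lhs => rw [this, Multiset.card_nsmul, Finset.card_val, h3]⟩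
  split_ifs with h
  · obtain ⟨k, rfl⟩ := h
    rw [Nat.card_eq_one_iff_unique]
    refine ⟨⟨fun u v => Subtype.ext ?_⟩, ⟨k • h2.toFinset.val, ⟨by simp [h3, mul_comm],
      fun a ha => by simpa using Multiset.mem_of_mem_nsmul ha⟩, ?_⟩⟩
    · obtain ⟨h4, h5⟩ := key u u.2.1.2 u.2.2
      obtain ⟨h6, h7⟩ := key v v.2.1.2 v.2.2
      rw [h4, h6, Nat.eq_of_mul_eq_mul_right hr.pos (h5.symm.trans (u.2.1.1.trans
        (v.2.1.1.symm.trans h7)))]
    · refine (eq_map_of_count (Group.mulLeft_bijective z) fun a => ?_).symm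
      simp [Multiset.count_nsmul, Multiset.count_eq_of_nodup h2.toFinset.nodup, mul_pow, hz]
  · rw [Nat.card_eq_zero]
    exact Or.inl ⟨fun u => h (u.2.1.1 ▸ (key u u.2.1.2 u.2.2).2 ▸ dvd_mul_left _ _)⟩

/-- The eigenvalue data of elements of projective order `r` fixed by the scalar `z`. -/
def PFix (Q : ℤ) (r N : ℕ) (z : Lˣ) (u : Multiset Lˣ) : Prop :=
  Multiset.card u = N ∧ u.map (· ^ Q) = u ∧ (∀ a ∈ u, ∀ b ∈ u, a ^ r = b ^ r) ∧
    (∃ a ∈ u, ∃ b ∈ u, a ≠ b) ∧ u.map (z * ·) = u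

theorem card_pfix_eq_sum (hr : r.Prime) (hrp : r ≠ p) [Fintype (mu Lˣ Q)] (z : Lˣ) :
    Nat.card {u // PFix Q r N z u} = ∑ c : mu Lˣ Q, Nat.card {u : Multiset Lˣ //
      (Multiset.card u = N ∧ ∀ a ∈ u, a ^ r = c) ∧ PFix Q r N z u} := by
  have : ∀ c : mu Lˣ Q, Finite {u : Multiset Lˣ //
      (Multiset.card u = N ∧ ∀ a ∈ u, a ^ r = c) ∧ PFix Q r N z u} := fun c =>
    have := (card_root_multisets (N := N) hr hrp (c : Lˣ)).1
    finite_of_imp (B := fun u => Multiset.card u = N ∧ ∀ a ∈ u, a ^ r = c) fun _ h => h.1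
  rw [← Nat.card_sigma]
  refine (Nat.card_eq_of_bijective (fun x => ⟨x.2.1, x.2.2.2⟩) ⟨?_, ?_⟩).symm
  · rintro ⟨c, u, hu⟩ ⟨c', u', hu'⟩ h
    obtain rfl : u = u' := congrArg Subtype.val h
    obtain ⟨a, ha, -⟩ := hu.2.2.2.2.1
    obtain rfl : c = c' := Subtype.ext ((hu.1.2 a ha).symm.trans (hu'.1.2 a ha))
    rfl
  · rintro ⟨u, hu⟩
    obtain ⟨a, ha, -⟩ := hu.2.2.2.1
    refine ⟨⟨⟨a ^ r, ?_⟩, u, ⟨hu.1, fun b hb => hu.2.2.1 b hb a ha⟩, hu⟩, rfl⟩
    rw [mem_mu, ← zpow_pow_comm]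
    exact hu.2.2.1 _ (hu.2.1 ▸ Multiset.mem_map_of_mem _ ha) a ha

omit [IsAlgClosed L] hp [CharP L p] in
theorem map_zpow_eq (hr : r.Prime) (hQ : (r : ℤ) ∣ Q - 1) {α : Lˣ} {u : Multiset Lˣ}
    (h : ∀ a ∈ u, a ^ r = α ^ r) : u.map (· ^ Q) = u.map (α ^ (Q - 1) * ·) :=
  Multiset.map_congr rfl fun a ha => by
    rw [← H77.zpow_eq_zpow_of_pow_eq (h a ha) hQ, ← zpow_add_one, sub_add_cancel]

omit [IsAlgClosed L] hp [CharP L p] in
theorem zpow_sub_one_pow {α : Lˣ} (h : (α ^ r) ^ Q = α ^ r) : (α ^ (Q - 1)) ^ r = 1 := by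
  rw [zpow_pow_comm, zpow_sub_one, h, mul_inv_cancel]

open Classical in
theorem card_pfix_of_ne (hr : r.Prime) (hrp : r ≠ p) (hQ : (r : ℤ) ∣ Q - 1) (hN : 0 < N)
    [Finite (mu Lˣ Q)] {z : Lˣ} (hz1 : z ≠ 1) : Nat.card {u // PFix Q r N z u} =
      if z ^ r = 1 then Nat.card (mu Lˣ Q) * if r ∣ N then 1 else 0 else 0 := by
  have := Fintype.ofFinite (mu Lˣ Q)
  rw [card_pfix_eq_sum hr hrp]
  by_cases hz : z ^ r = 1
  · rw [if_pos hz, Finset.sum_eq_card_nsmul (b := if r ∣ N then 1 else 0) fun c _ => ?_]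
    · simp
    rw [← card_root_uniform hr hrp (c : Lˣ) hz hz1]
    refine Nat.card_congr (Equiv.subtypeEquivRight fun u => and_congr_right fun h =>
      ⟨fun h' => h'.2.2.2.2, fun h' => ⟨h.1, ?_, fun a ha b hb => (h.2 a ha).trans (h.2 b hb).symm,
        ?_, h'⟩⟩)
    · obtain ⟨α, hα⟩ := exists_units_pow_eq hr.pos (c : Lˣ)
      rw [map_zpow_eq hr hQ (hα ▸ h.2)]
      exact map_mul_eq_of_map_mul hr hz hz1 (zpow_sub_one_pow (hα ▸ c.2)) h'
    · obtain ⟨a, ha⟩ := Multiset.card_pos_iff_exists_mem.1 (h.1 ▸ hN)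
      exact ⟨z * a, h' ▸ Multiset.mem_map_of_mem _ ha, a, ha, by simpa using hz1⟩
  · rw [if_neg hz]
    refine Finset.sum_eq_zero fun c _ => Nat.card_eq_zero.2 (Or.inl ⟨fun u => hz ?_⟩)
    obtain ⟨a, ha, -⟩ := u.2.2.2.2.2.1
    have := u.2.2.2.2.1 _ (u.2.2.2.2.2.2 ▸ Multiset.mem_map_of_mem _ ha) a ha
    simpa [mul_pow] using this

theorem card_mu_pow_eq (hr : r.Prime) (hrp : r ≠ p) (hQ : (r : ℤ) ∣ Q - 1) :
    Nat.card {z : mu Lˣ Q // z ^ r = 1} = r := by
  conv_rhs => rw [← card_units_pow_eq (L := L) hr hrp 1]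
  exact Nat.card_congr
    { toFun z := ⟨z.1, congrArg Subtype.val z.2⟩
      invFun z := ⟨⟨z.1, H77.fixed_of_pow_eq hQ (z.2.trans (one_pow r).symm) (one_zpow Q)⟩,
        Subtype.ext z.2⟩
      left_inv _ := rfl
      right_inv _ := rfl }

theorem card_pfix_one (hr : r.Prime) (hrp : r ≠ p) (hQ : (r : ℤ) ∣ Q - 1) (hN : 0 < N)
    [Finite (mu Lˣ Q)] : r * Nat.card {u // PFix Q r N (1 : Lˣ) u} = Nat.card (mu Lˣ Q) *
      (r.multichoose N - r + (r - 1) * if r ∣ N then 1 else 0) := by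
  classical
  have := Fintype.ofFinite (mu Lˣ Q)
  let f : mu Lˣ Q →* mu Lˣ Q := powMonoidHom r
  have h1 : r * Nat.card f.range = Nat.card (mu Lˣ Q) := by
    rw [← f.ker.card_mul_index, Subgroup.index_ker]
    congr 1
    exact (card_mu_pow_eq hr hrp hQ).symm
  rw [card_pfix_eq_sum hr hrp, Finset.sum_congr rfl (g := fun c => if c ∈ f.range then
    r.multichoose N - r else if r ∣ N then 1 else 0) fun c _ => ?_]
  · have h2 : (Finset.univ.filter fun c => c ∈ f.range).card = Nat.card f.range := by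
      rw [Nat.card_eq_fintype_card, Fintype.card_subtype]
    have h3 := Finset.card_filter_add_card_filter_not (s := Finset.univ) fun c => c ∈ f.range
    rw [Finset.card_univ, ← Nat.card_eq_fintype_card, ← h1, h2] at h3
    rw [Finset.sum_ite, Finset.sum_const, Finset.sum_const, h2, ← h1,
      show (Finset.univ.filter fun c => ¬ c ∈ f.range).card = (r - 1) * Nat.card f.range by
        rw [Nat.sub_mul]; omega]
    simp only [smul_eq_mul]
    ring
  by_cases hc : c ∈ f.range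
  · obtain ⟨α, rfl⟩ := hc
    rw [if_pos ⟨α, rfl⟩, ← card_root_nonconst hr hrp hN (f α : Lˣ), Nat.add_sub_cancel]
    refine Nat.card_congr (Equiv.subtypeEquivRight fun u => and_congr_right fun h =>
      ⟨fun h' => h'.2.2.2.1, fun h' => ⟨h.1, ?_, fun a ha b hb => (h.2 a ha).trans (h.2 b hb).symm,
        h', by simp⟩⟩)
    rw [map_zpow_eq hr hQ (α := α) h.2, zpow_sub_one, α.2]
    simp
  · obtain ⟨α, hα⟩ := exists_units_pow_eq hr.pos (c : Lˣ)
    have h2 : α ^ (Q - 1) ≠ 1 := fun h => hc ⟨⟨α, by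
      rwa [zpow_sub_one, mul_inv_eq_one] at h⟩, Subtype.ext hα⟩
    rw [if_neg hc, ← card_root_uniform hr hrp (c : Lˣ) (zpow_sub_one_pow (hα ▸ c.2)) h2]
    refine Nat.card_congr (Equiv.subtypeEquivRight fun u => and_congr_right fun h => ?_)
    have h3 := map_zpow_eq hr hQ (hα ▸ h.2)
    refine ⟨fun h' => h3 ▸ h'.2.1, fun h' => ⟨h.1, h3.trans h',
      fun a ha b hb => (h.2 a ha).trans (h.2 b hb).symm, ?_, by simp⟩⟩
    obtain ⟨a, ha⟩ := Multiset.card_pos_iff_exists_mem.1 (h.1 ▸ hN)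
    exact ⟨_ * a, h' ▸ Multiset.mem_map_of_mem _ ha, a, ha, by simpa using h2⟩

theorem sum_card_pfix (hr : r.Prime) (hrp : r ≠ p) (hQ : (r : ℤ) ∣ Q - 1) (hN : 0 < N)
    [Fintype (mu Lˣ Q)] : r * ∑ z : mu Lˣ Q, Nat.card {u // PFix Q r N (z : Lˣ) u} =
      Nat.card (mu Lˣ Q) *
      (r.multichoose N - r + (r * r - 1) * if r ∣ N then 1 else 0) := by
  classical
  have h1 : ((Finset.univ.erase 1).filter fun z : mu Lˣ Q => z ^ r = 1).card = r - 1 := by
    rw [Finset.filter_erase, Finset.card_erase_of_mem (by simp), ← Fintype.card_subtype,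
      ← Nat.card_eq_fintype_card, card_mu_pow_eq hr hrp hQ]
  rw [← Finset.add_sum_erase _ _ (Finset.mem_univ 1), mul_add, OneMemClass.coe_one,
    card_pfix_one hr hrp hQ hN, Finset.sum_congr rfl fun z hz => card_pfix_of_ne hr hrp hQ hN
      fun h => (Finset.mem_erase.1 hz).1 (Subtype.ext h)]
  simp only [← SubmonoidClass.coe_pow, OneMemClass.coe_eq_one]
  rw [← Finset.sum_filter, Finset.sum_const, h1]
  obtain ⟨k, rfl⟩ := Nat.exists_eq_succ_of_ne_zero hr.ne_zero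
  rw [show k.succ * k.succ - 1 = k + k.succ * k by simp [Nat.succ_eq_add_one, add_mul, mul_add]; ring]
  simp only [smul_eq_mul, Nat.succ_sub_one]
  ring

omit [IsAlgClosed L] [CharP L p] in
theorem card_data_pfix (hr : r.Prime) (hrp : r ≠ p) (z : Lˣ) :
    Nat.card {s : Multiset (Lˣ × ℕ) // Adm Q N s ∧ ((PK p s r ∧ ¬ PK p s 1) ∧ twist z s = s)} =
      Nat.card {u // PFix Q r N z u} := by
  have h1 : ∀ (u : Multiset Lˣ) (f : Lˣ → Lˣ), (tag 1 u).map (fun x => (f x.1, x.2)) = tag 1 u ↔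
      u.map f = u := fun u f => by
    rw [tag_map]
    exact ⟨fun h => by simpa [part_tag] using congrArg (part 1) h, fun h => by rw [h]⟩
  have h2 : ∀ u : Multiset Lˣ, Adm Q N (tag 1 u) ∧ ((PK p (tag 1 u) r ∧ ¬ PK p (tag 1 u) 1) ∧
      twist z (tag 1 u) = tag 1 u) ↔ PFix Q r N z u := fun u => by
    have h3 : ∀ x ∈ tag 1 u, x.2 = 1 := fun x hx => (mem_tag.1 hx).2
    rw [H77.pk_iff_of_one h3, H77.pk_iff_of_one h3, twist, h1 u (z * ·), PFix]
    have h4 : Adm Q N (tag 1 u) ↔ Multiset.card u = N ∧ u.map (· ^ Q) = u :=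
      ⟨fun h => ⟨by simpa using h.wt_eq, (h1 u (· ^ Q)).1 h.stab⟩,
        fun h => ⟨fun x hx => (h3 x hx).ge, (h1 u (· ^ Q)).2 h.2, by simpa using h.1⟩⟩
    rw [h4]
    simp [tag, and_assoc]
  refine (Nat.card_eq_of_bijective (fun u => ⟨tag 1 u.1, (h2 _).2 u.2⟩) ⟨fun u v h => Subtype.ext
    (by simpa [part_tag] using congrArg (part 1) (congrArg Subtype.val h)), ?_⟩).symm
  rintro ⟨s, hs⟩
  have h3 : tag 1 (part 1 s) = s := by
    rw [tag_part, Multiset.filter_eq_self]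
    exact H77.snd_eq_one_of_pk hp.out hr hrp hs.1.pos hs.2.1.1
  exact ⟨⟨part 1 s, (h2 _).1 (h3.symm ▸ hs)⟩, Subtype.ext h3⟩

end Comb

section Group
variable {F : Type u} [Field F] [Fintype F] {L : Type w} [Field L] [Algebra F L] [IsAlgClosed L]
  [Algebra.IsAlgebraic F L] {n : Type v} [Fintype n] [DecidableEq n] {p : ℕ} [hp : Fact p.Prime]
  [CharP F p] {G : Type*} [Group G] {φ : G →* GL n F} {δ : G →* Lˣ} {Q : ℤ} {N r : ℕ}

theorem exists_center_equiv (p : ℕ) [Fact p.Prime] [CharP F p] (hφ : Function.Injective φ)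
    (h : CM (fun g => ujord L (φ g)) δ Q N) (hN : 0 < N)
    (hZ : ∀ g, g ∈ Subgroup.center G ↔ φ g ∈ Subgroup.center (GL n F)) :
    ∃ β : Subgroup.center G → mu Lˣ Q, Function.Bijective β ∧
      ∀ (z : Subgroup.center G) y, ujord L (φ (z * y)) = twist (β z : Lˣ) (ujord L (φ y)) := by
  have hn : Fintype.card n = N := (wt_ujord (φ 1)).symm.trans (h.adm 1).wt_eq
  have : Nonempty n := Fintype.card_pos_iff.1 (hn ▸ hN)
  choose a ha using fun z : Subgroup.center G => (mem_center_gl_iff' _).1 ((hZ _).1 z.2)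
  have h0 : ∀ z, algebraMap F L (a z) ≠ 0 := fun z => (map_ne_zero _).2 fun h0 =>
    (φ z).ne_zero (by rw [ha, h0, zero_smul])
  have h1 : ∀ (z : Subgroup.center G) y, ujord L (φ (z * y)) = twist (Units.mk0 _ (h0 z)) (ujord L (φ y)) := fun z y =>
    ujord_of_smul (c := a z) (by rw [map_mul, Units.val_mul, ha, smul_mul_assoc, one_mul]) rfl
  have h2 : ∀ z : Subgroup.center G, ujord L (φ z) = Multiset.replicate N (Units.mk0 _ (h0 z), 1) := fun z => by
    simpa [ujord_one, twist, hn] using h1 z 1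
  refine ⟨fun z => ⟨Units.mk0 _ (h0 z), ?_⟩, ⟨fun z z' e => ?_, fun b => ?_⟩, h1⟩
  · have := (h.adm z).frob_mem_one (x := (Units.mk0 _ (h0 z), 1)) (by simp [h2, hN.ne', Multiset.mem_replicate])
    rw [h2] at this
    exact congrArg Prod.fst (Multiset.eq_of_mem_replicate this)
  · have : a z = a z' := (algebraMap F L).injective (congrArg (fun x : mu Lˣ Q => ((x : Lˣ) : L)) e)
    exact Subtype.ext (hφ (Units.ext (by rw [ha, ha, this])))
  · obtain ⟨g, hg⟩ := (h.range _).1 ((adm_replicate b.2 one_pos N).cast (mul_one N))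
    have hg : ujord L (φ g) = _ := hg
    have : g ∈ Subgroup.center G := by
      rw [hZ, ← pow_one (φ g), pow_mem_center_iff_pk L p, hg]
      simp +contextual [PK, Multiset.mem_replicate]
    refine ⟨⟨g, this⟩, Subtype.ext (congrArg Prod.fst (Multiset.replicate_right_injective hN.ne'
      ((h2 ⟨g, this⟩).symm.trans hg)))⟩

/-- The number of classes of elements of prime order `r ∣ Q - 1` in the projective group. -/
theorem card_proj_prime [Finite G] (hφ : Function.Injective φ)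
    (h : CM (fun g => ujord L (φ g)) δ Q N) (hN : 2 ≤ N) (hpQ : (p : ℤ) ∣ Q)
    (hZ : ∀ g, g ∈ Subgroup.center G ↔ φ g ∈ Subgroup.center (GL n F)) (hr : r.Prime)
    (hQ : (r : ℤ) ∣ Q - 1) :
    Nat.card {C : ConjClasses (G ⧸ Subgroup.center G) //
      ∃ g, ConjClasses.mk g = C ∧ orderOf g = r} =
      (Nat.choose (N + r - 1) (r - 1) - r - (if r ∣ N then 1 else 0)) / r +
        r * (if r ∣ N then 1 else 0) := by
  have : CharP L p := charP_of_injective_algebraMap (algebraMap F L).injective p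
  have hrp : r ≠ p := by
    rintro rfl
    exact not_dvd_of_dvd_pow_sub_one hr.one_lt hpQ one_pos (by simpa using hQ) dvd_rfl
  have hmu : Nat.card (mu Lˣ Q) ≠ 0 := by
    rw [card_mu L hpQ]; exact (natAbs_sub_one_pos hpQ).ne'
  have := Nat.finite_of_card_ne_zero hmu
  have := Fintype.ofFinite (mu Lˣ Q)
  have := Fintype.ofFinite (Subgroup.center G)
  obtain ⟨β, hβ, hβ'⟩ := exists_center_equiv p hφ h (by omega) hZ
  have h1 := card_mul_card_classes_quot (Subgroup.center G) le_rfl (fun g => orderOf g = r)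
    fun g g' hc hg => by
      obtain ⟨c, rfl⟩ := isConj_iff.1 hc
      rwa [← MulAut.conj_apply, MulEquiv.orderOf_eq]
  have key : ∀ (y : G) (k : ℕ), orderOf (y : G ⧸ Subgroup.center G) ∣ k ↔
      PK p (ujord L (φ y)) k := fun y k => by
    rw [← pow_mem_center_iff_pk, orderOf_dvd_iff_pow_eq_one, ← map_pow, ← hZ,
      ← QuotientGroup.mk_pow, QuotientGroup.eq_one_iff]
  rw [Finset.sum_congr rfl fun z _ => (h.card_classes _
    (fun s => (PK p s r ∧ ¬ PK p s 1) ∧ twist (β z : Lˣ) s = s) fun y => ?_).trans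
      (card_data_pfix hr hrp _), hβ.sum_comp fun z => Nat.card {u // PFix Q r N (z : Lˣ) u},
    Nat.card_eq_of_bijective β hβ] at h1
  swap
  · rw [h.conj, ← key, ← key, Nat.dvd_one, Nat.dvd_prime hr, hβ']
    have := hr.one_lt
    refine and_congr_left fun _ => ⟨fun h => ⟨Or.inr h, by omega⟩, fun h => h.1.resolve_left h.2⟩
  have h2 := sum_card_pfix (L := L) (N := N) hr hrp hQ (by omega)
  rw [← h1, mul_left_comm, Nat.mul_right_inj hmu, Nat.multichoose_eq, add_comm r N,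
    ← Nat.choose_symm (by have := hr.pos; omega), show N + r - 1 - N = r - 1 by omega] at h2
  generalize Nat.card _ = k at h2 ⊢
  split_ifs at h2 ⊢ with h4
  · generalize (N + r - 1).choose (r - 1) - r = A at h2 ⊢
    have h5 : r * k + 1 = A + r * r := by have := Nat.mul_pos hr.pos hr.pos; omega
    rcases A with _ | A
    · exact absurd (Nat.dvd_one.1 ((Nat.dvd_add_right (dvd_mul_right r k)).1
        (h5 ▸ by simp))) hr.one_lt.ne'
    · rw [mul_one, Nat.add_sub_cancel, ← Nat.add_mul_div_left _ _ hr.pos,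
        show A + r * r = r * k by omega, Nat.mul_div_cancel_left _ hr.pos]
  · simp only [mul_zero, add_zero, Nat.sub_zero] at h2 ⊢
    rw [← h2, Nat.mul_div_cancel_left _ hr.pos]

end Group

end Cfsg.Agent.H76
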