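import Cfsg.Agent.H18.RfSc
import Cfsg.Agent.H6.ZStar

/-! Project RF, piece GS: from strong closure to normality. -/

set_option autoImplicit false

namespace Cfsg.Agent.H76.RfGs

open Cfsg Subgroup Cfsg.Agent.H18.MaxOff Cfsg.Agent.H18.Rf
open Cfsg.Agent.H49 (XS LX)

universe u

section pull
variable {G H : Type u} [Group G] [Group H] {C : Subgroup G} (π : C →* H)

/-- The preimage of a subgroup. -/
def pull (F : Subgroup H) : Subgroup G := (F.comap π).map C.subtype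

variable {π}

theorem mem_pull {F : Subgroup H} {c : C} : (c : G) ∈ pull π F ↔ π c ∈ F :=
  ⟨fun ⟨_, h, e⟩ => (Subtype.ext e : _ = c) ▸ h, fun h => ⟨c, h, rfl⟩⟩

theorem pull_le (F : Subgroup H) : pull π F ≤ C := map_subtype_le _

theorem pull_mono {F F' : Subgroup H} (h : F ≤ F') : pull π F ≤ pull π F' :=
  map_mono (comap_mono h)

theorem relIndex_pull (hπ : Function.Surjective π) (F F' : Subgroup H) :
    (pull π F).relIndex (pull π F') = F.relIndex F' := by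
  rw [pull, pull, relIndex_map_map_of_injective _ _ C.subtype_injective, relIndex_comap,
    map_comap_eq_self_of_surjective hπ]

theorem norm_pull [Finite G] {F : Subgroup H} {c : C} (h : π c ∈ NN F) : (c : G) ∈ NN (pull π F) :=
  mem_norm_of_le fun a ha => by
    obtain ⟨x, hx, rfl⟩ := ha
    refine (mem_pull (c := c * x * c⁻¹)).2 ?_
    rw [map_mul, map_mul, map_inv]
    exact (mem_normalizer_iff.1 h _).1 hx

theorem norm_of_pull [Finite H] (hπ : Function.Surjective π) {F : Subgroup H} {c : C}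
    (h : (c : G) ∈ NN (pull π F)) : π c ∈ NN F :=
  mem_norm_of_le fun a ha => by
    obtain ⟨x, rfl⟩ := hπ a
    rw [← map_inv, ← map_mul, ← map_mul]
    exact mem_pull.1 ((mem_normalizer_iff.1 h _).1 (mem_pull.2 ha))

end pull

theorem gs (hGen : GenStmt.{u}) (hGo : GoStmt.{u}) (hGw : GwStmt.{u}) : GsStmt.{u} := by
  intro G _ _ V z Q W hV _ hW L hQ hO hS
  have gw := hGw G V z Q W hV hW L hO
  suffices h : C1 z ≤ NN Q from ⟨L.xs, gw.2 h, h⟩
  have zC : z ∈ C1 z := mem_centralizer_singleton_iff.2 rfl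
  have QC : Q ≤ C1 z := L.qm.trans inf_le_right
  have VC : V ≤ C1 z := fun v hv => mem_centralizer_singleton_iff.2 (comm_of_sq hV hv L.zV)
  have cZ : ∀ c ∈ C1 z, ∀ x ∈ zpowers z, c * x * c⁻¹ = x := fun c hc x hx => by
    rw [mul_inv_eq_iff_eq_mul]
    exact ((show Commute c z from mem_centralizer_singleton_iff.1 hc).zpow_right hx.choose).eq
      |> fun e => hx.choose_spec ▸ e
  let Z : Subgroup (C1 z) := (zpowers z).subgroupOf (C1 z)
  have Zc : Z ≤ center (C1 z) := fun x hx => mem_center_iff.2 fun c =>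
    Subtype.ext (mul_inv_eq_iff_eq_mul.1 (cZ c c.2 x hx))
  have Zn : Z.Normal := ⟨fun x hx c => by
    change (c : G) * x * (c : G)⁻¹ ∈ zpowers z
    rw [cZ c c.2 x hx]; exact hx⟩
  let π : C1 z →* C1 z ⧸ Z := QuotientGroup.mk' Z
  have hπ : Function.Surjective π := QuotientGroup.mk'_surjective Z
  have kπ : ∀ c : C1 z, π c = 1 ↔ (c : G) ∈ zpowers z := fun c => QuotientGroup.eq_one_iff c
  have ZQ : zpowers z ≤ Q := zpowers_le.2 L.xs.mem
  let A : Subgroup (C1 z ⧸ Z) := (Q.subgroupOf (C1 z)).map π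
  have mA : ∀ c : C1 z, π c ∈ A ↔ (c : G) ∈ Q := fun c => ⟨fun ⟨x, hx, e⟩ => by
    have : ((x⁻¹ * c : C1 z) : G) ∈ zpowers z := (kπ _).1 (by rw [map_mul, map_inv, e, inv_mul_cancel])
    exact (mul_mem_cancel_left (inv_mem hx)).1 (ZQ this), fun h => ⟨c, h, rfl⟩⟩
  have pA : pull π A = Q := le_antisymm (fun x hx => (mA ⟨x, pull_le _ hx⟩).1 (mem_pull.1 hx))
    fun x hx => (mem_pull (c := ⟨x, QC hx⟩)).2 ((mA _).2 hx)
  have pB : pull π ⊥ = zpowers z := le_antisymm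
    (fun x hx => (kπ ⟨x, pull_le _ hx⟩).1 (mem_bot.1 (mem_pull.1 hx)))
    fun x hx => (mem_pull (c := ⟨x, QC (ZQ hx)⟩)).2 (mem_bot.2 ((kπ _).2 hx))
  have pC : pull π (CC A) = C1 z ⊓ NN Q ⊓ CM Q (zpowers z) := by
    refine le_antisymm (fun x hx => ?_) fun x hx => ?_
    · have hx' := (mem_pull (c := ⟨x, pull_le _ hx⟩)).1 hx
      have k : ∀ q ∈ Q, x * q * x⁻¹ * q⁻¹ ∈ zpowers z := fun q hq => by
        refine (kπ (⟨x, pull_le _ hx⟩ * ⟨q, QC hq⟩ * (⟨x, pull_le _ hx⟩)⁻¹ * (⟨q, QC hq⟩)⁻¹)).1 ?_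
        rw [map_mul, map_mul, map_mul, map_inv, map_inv, ← hx' _ ((mA ⟨q, QC hq⟩).2 hq)]
        group
      refine ⟨⟨pull_le _ hx, mem_norm_of_le fun q hq => ?_⟩,
        mem_norm_of_le fun a ha => by rw [cZ x (pull_le _ hx) a ha]; exact ha, k⟩
      exact (mul_mem_cancel_right (inv_mem hq)).1 (ZQ (k q hq))
    · refine (mem_pull (c := ⟨x, hx.1.1⟩)).2 ?_
      rintro _ ⟨q, hq, rfl⟩
      have := (kπ (⟨x, hx.1.1⟩ * q * (⟨x, hx.1.1⟩)⁻¹ * q⁻¹)).2 (hx.2.2 q hq)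
      rw [map_mul, map_mul, map_mul, map_inv, map_inv, mul_inv_eq_one, mul_inv_eq_iff_eq_mul] at this
      exact this.symm
  have sqA : ∀ a ∈ A, a * a = 1 := by
    rintro _ ⟨q, hq, rfl⟩
    rw [← map_mul]
    refine (kπ _).2 ?_
    rcases L.xs.sq hq with e | e
    · exact (show ((q * q : C1 z) : G) = 1 from e) ▸ one_mem _
    · exact (show ((q * q : C1 z) : G) = z from e).symm ▸ mem_zpowers z
  have pZ : IsPGroup 2 (zpowers z) := pg_of_sq fun a ha => by
    rcases (H49.mem_zpowers_invol L.xs.zz).1 ha with rfl | rfl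
    exacts [mul_one 1, L.xs.zz]
  have pk : IsPGroup 2 π.ker := by
    rw [QuotientGroup.ker_mk']
    exact pZ.comap_subtype
  have pP : ∀ F : Subgroup (C1 z ⧸ Z), IsPGroup 2 F → IsPGroup 2 (pull π F) := fun F hF =>
    (hF.comap_of_ker_isPGroup π pk).map _
  have pQ : IsPGroup 2 Q := pA ▸ pP A (pg_of_sq sqA)
  have pVQ : IsPGroup 2 (V ⊔ Q : Subgroup G) :=
    pg_sup pQ (pg_of_sq hV) ((le_inf le_normalizer VC).trans L.mq)
  obtain ⟨S, hSle⟩ := (pVQ.comap_subtype (K := C1 z)).map π |>.exists_le_sylow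
  have TM : pull π S ≤ MM V z := le_inf (hW.le_norm (pP _ S.isPGroup') fun v hv =>
    (mem_pull (c := ⟨v, VC hv⟩)).2 (hSle ⟨⟨v, VC hv⟩, mem_sup_left hv, rfl⟩)) (pull_le _)
  have nB : C1 z ≤ NN (pull π A.normalCore) := fun c hc =>
    norm_pull (c := ⟨c, hc⟩) ((normalizer_eq_top A.normalCore).ge (mem_top _))
  rcases L.sub (pull π A.normalCore) (pull_mono bot_le (pB.symm ▸ mem_zpowers z))
    (pA ▸ pull_mono A.normalCore_le) (inf_le_right.trans nB) with e | e | e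
  · exfalso
    have h4 := hGen _ S A (H6.pPrimeCore_quotient_eq_bot_of_le_center Z Zc hO) sqA
      ⟨fun _ ⟨q, hq, e⟩ => hSle ⟨q, mem_sup_right hq, e⟩, fun x hx g hg => ?_⟩ (fun x hx => ?_)
      (fun B hB hBA => eq_bot_iff.2 fun x hx => ?_) fun F h1 h2 h3 h4 => ?_
    · have h1 := relIndex_pull hπ ⊥ A
      rw [pB, pA, relIndex_bot_left] at h1
      have h2 := ((zpowers z).subgroupOf Q).card_mul_index
      rw [Nat.card_congr (subgroupOfEquivOfLe ZQ).toEquiv, Nat.card_zpowers,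
        orderOf_eq_prime (by rw [sq, L.xs.zz]) L.xs.ne] at h2
      change 2 * (zpowers z).relIndex Q = _ at h2
      omega
    · obtain ⟨q, rfl⟩ := hπ x
      obtain ⟨c, rfl⟩ := hπ g
      rw [← map_inv, ← map_mul, ← map_mul] at hg ⊢
      refine (mA _).2 (hS c c.2 ⟨mem_cj.2 ?_, L.mq (TM (mem_pull.2 hg))⟩)
      simpa [mul_assoc] using (mA q).1 hx
    · obtain ⟨c, rfl⟩ := hπ x
      exact (mA c).2 (L.cq ⟨TM (mem_pull.2 hx.1), (pC.le (mem_pull.2 hx.2)).2⟩)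
    · obtain ⟨c, rfl⟩ := hπ x
      exact (kπ c).2 (e.le (mem_pull.2 (normal_le_normalCore.2 hBA hx)))
    · rw [← relIndex_pull hπ, pC] at h4 ⊢
      refine hGo G V z Q W hV hW L _ (pC ▸ pull_mono h1) (fun x hx => ⟨pull_le _ hx, ?_⟩)
        (fun x hx => norm_pull (c := ⟨x, hx.1⟩) (h3 (norm_of_pull hπ (pA.symm ▸ hx.2)))) h4
      exact pA ▸ norm_pull (c := ⟨x, pull_le _ hx⟩) (h2 (mem_pull.1 hx))
  · exact (le_inf (gw.1 (e ▸ nB)) le_rfl).trans L.mq
  · exact e ▸ nB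

end Cfsg.Agent.H76.RfGs
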