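import Cfsg.Agent.H76.SpCount

set_option autoImplicit false

namespace Cfsg.Agent.H76

universe u v w

section
variable {A : Type*} [CommGroup A] [Neg A] {good : ℕ → Prop} [DecidablePred good]

theorem card_labOK_unip (h1 : (-1 : A) ≠ 1) {m : Multiset ℕ} (hm : ∀ x ∈ m, 0 < x) :
    Nat.card {τ : ℕ → ℤˣ × ℤˣ // LabOK good (m.map fun e => ((1 : A), e)) τ} =
      2 ^ (m.toFinset.filter good).card := by
  classical
  have key : ∀ (τ : ℕ → ℤˣ × ℤˣ), LabOK good (m.map fun e => ((1 : A), e)) τ → ∀ j,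
      (τ j).2 = 1 ∧ (j + 1 ∉ m.toFinset.filter good → (τ j).1 = 1) := by
    intro τ hτ j
    refine ⟨by_contra fun h => ?_, fun h => by_contra fun h' => h ?_⟩
    · obtain ⟨x, -, hx⟩ := Multiset.mem_map.1 ((hτ j).2 h).2
      exact h1 (congrArg Prod.fst hx).symm
    · obtain ⟨x, hx, hx'⟩ := Multiset.mem_map.1 ((hτ j).1 h').2
      obtain rfl : x = j + 1 := congrArg Prod.snd hx'
      exact Finset.mem_filter.2 ⟨Multiset.mem_toFinset.2 hx, ((hτ j).1 h').1⟩
  rw [Nat.card_eq_of_bijective (fun (τ : {τ : ℕ → ℤˣ × ℤˣ //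
      LabOK good (m.map fun e => ((1 : A), e)) τ}) (e : (m.toFinset.filter good)) =>
      (τ.1 (e - 1)).1) ⟨?_, ?_⟩]
  · rw [Nat.card_fun, Nat.card_eq_fintype_card, Nat.card_eq_fintype_card, Fintype.card_coe]
    simp
  · intro τ τ' h
    refine Subtype.ext (funext fun j => Prod.ext ?_ ?_)
    · by_cases hj : j + 1 ∈ m.toFinset.filter good
      · simpa using congrFun h ⟨j + 1, hj⟩
      · rw [(key _ τ.2 j).2 hj, (key _ τ'.2 j).2 hj]
    · rw [(key _ τ.2 j).1, (key _ τ'.2 j).1]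
  · intro σ
    refine ⟨⟨fun j => (if h : j + 1 ∈ m.toFinset.filter good then σ ⟨j + 1, h⟩ else 1, 1),
      fun j => ⟨fun h => ?_, fun h => absurd rfl h⟩⟩, funext fun e => ?_⟩
    · have hj : j + 1 ∈ m.toFinset.filter good := by_contra fun hj => h (dif_neg hj)
      rw [Finset.mem_filter, Multiset.mem_toFinset] at hj
      exact ⟨hj.2, Multiset.mem_map_of_mem _ hj.1⟩
    · have he : (e : ℕ) - 1 + 1 = e :=
        Nat.sub_add_cancel (hm _ (Multiset.mem_toFinset.1 (Finset.mem_filter.1 e.2).1))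
      have he' : (e : ℕ) - 1 + 1 ∈ m.toFinset.filter good := he.symm ▸ e.2
      simp only [dif_pos he']
      congr 1
      exact Subtype.ext he

omit [Neg A] [DecidablePred good] in
theorem fadm_unip_iff {Q : ℤ} {n : ℕ} {m : Multiset ℕ} :
    FAdm good Q n (m.map fun e => ((1 : A), e)) ↔
      ((∀ x ∈ m, 0 < x) ∧ m.sum = n) ∧ ∀ j, ¬ good j → Even (m.count j) := by
  classical
  have hc : ∀ j, (m.map fun e => ((1 : A), e)).count (1, j) = m.count j := fun j =>
    Multiset.count_map_eq_count' _ _ (Prod.mk_right_injective _) j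
  have hw : wt (m.map fun e => ((1 : A), e)) = m.sum := by simp [wt]
  constructor
  · intro h
    refine ⟨⟨fun x hx => h.adm.pos _ (Multiset.mem_map_of_mem _ hx), hw ▸ h.adm.wt_eq⟩,
      fun j hj => ?_⟩
    rw [← hc]; exact h.par' 1 (one_pow 2) j hj
  · rintro ⟨⟨h1, h2⟩, h3⟩
    refine ⟨⟨?_, by simp [frob, Function.comp_def], hw.trans h2⟩,
      by simp [frob, Function.comp_def], fun α _ e he => ?_⟩
    · intro x hx
      obtain ⟨y, hy, rfl⟩ := Multiset.mem_map.1 hx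
      exact h1 y hy
    · by_cases hα : α = 1
      · subst hα
        convert (hc e).symm ▸ h3 e he
      · rw [Multiset.count_eq_zero_of_notMem]
        · exact Even.zero
        · intro hx
          obtain ⟨y, -, hy⟩ := Multiset.mem_map.1 hx
          exact hα (congrArg Prod.fst hy).symm

theorem card_unip_labels (h1 : (-1 : A) ≠ 1) (Q : ℤ) (n : ℕ) (R : Nat.Partition n → Prop)
    [DecidablePred R] (R' : Multiset ℕ → Prop)
    (hR : ∀ μ, R μ ↔ R' μ.parts ∧ ∀ j, ¬ good j → Even (μ.parts.count j)) :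
    Nat.card {t : Multiset (A × ℕ) × (ℕ → ℤˣ × ℤˣ) // (FAdm good Q n t.1 ∧ LabOK good t.1 t.2) ∧
      ((∀ x ∈ t.1, x.1 = 1) ∧ R' (t.1.map Prod.snd))} =
      ∑ μ ∈ Finset.univ.filter R, 2 ^ (μ.parts.toFinset.filter good).card := by
  classical
  have hs : ∀ m : Multiset ℕ, (m.map fun e => ((1 : A), e)).map Prod.snd = m := by simp
  have hfin : ∀ μ : {μ // R μ}, Finite
      {τ : ℕ → ℤˣ × ℤˣ // LabOK good (μ.1.parts.map fun e => ((1 : A), e)) τ} := fun μ =>
    Nat.finite_of_card_ne_zero (by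
      rw [card_labOK_unip h1 fun x hx => μ.1.parts_pos hx]; positivity)
  rw [← Nat.card_eq_of_bijective (fun x : Σ μ : {μ // R μ},
      {τ : ℕ → ℤˣ × ℤˣ // LabOK good (μ.1.parts.map fun e => ((1 : A), e)) τ} =>
      (⟨(x.1.1.parts.map fun e => ((1 : A), e), x.2.1),
        ⟨fadm_unip_iff.2 ⟨⟨fun _ hx => x.1.1.parts_pos hx, x.1.1.parts_sum⟩,
          ((hR _).1 x.1.2).2⟩, x.2.2⟩, by simp, by rw [hs]; exact ((hR _).1 x.1.2).1⟩ :
        {t : Multiset (A × ℕ) × (ℕ → ℤˣ × ℤˣ) // (FAdm good Q n t.1 ∧ LabOK good t.1 t.2) ∧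
      ((∀ x ∈ t.1, x.1 = 1) ∧ R' (t.1.map Prod.snd))})) ⟨?_, ?_⟩, Nat.card_sigma,
    Finset.sum_subtype (Finset.univ.filter R) (p := R) (by simp)]
  · exact Finset.sum_congr rfl fun μ _ => card_labOK_unip h1 fun x hx => μ.1.parts_pos hx
  · rintro ⟨μ, τ⟩ ⟨μ', τ'⟩ h
    have h := congrArg Subtype.val h
    obtain rfl : μ = μ' := by
      have := congrArg (Multiset.map Prod.snd) (congrArg Prod.fst h)
      simp only [hs] at this
      exact Subtype.ext (Nat.Partition.ext this)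
    obtain rfl : τ = τ' := Subtype.ext (congrArg Prod.snd h)
    rfl
  · rintro ⟨⟨s, τ⟩, ⟨h2, h3⟩, h4, h5⟩
    have e : (s.map Prod.snd).map (fun e => ((1 : A), e)) = s := by
      rw [Multiset.map_map]
      conv_rhs => rw [← Multiset.map_id s]
      exact Multiset.map_congr rfl fun x hx => Prod.ext (h4 x hx).symm rfl
    have h6 := fadm_unip_iff.1 (e.symm ▸ h2 : FAdm good Q n ((s.map Prod.snd).map fun e => ((1 : A), e)))
    refine ⟨⟨⟨⟨s.map Prod.snd, fun hx => h6.1.1 _ hx, h6.1.2⟩, (hR _).2 ⟨h5, h6.2⟩⟩, τ, ?_⟩,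
      Subtype.ext (Prod.ext e rfl)⟩
    exact e.symm ▸ h3

end

theorem neg_one_ne_one_units' {L : Type*} [Field L] (h2 : (2 : L) ≠ 0) : (-1 : Lˣ) ≠ 1 := by
  intro h
  have : ((-1 : Lˣ) : L) = 1 := by rw [h, Units.val_one]
  rw [Units.val_neg, Units.val_one] at this
  exact h2 (by linear_combination -this)

/-- Unipotent classes of `Sp_{2n}(q)`, `q` odd, are counted by signed partitions. -/
theorem card_sp_unipotent {F : Type u} [Field F] [Fintype F] (L : Type w) [Field L] [Algebra F L]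
    [IsAlgClosed L] [Algebra.IsAlgebraic F L] (h2 : (2 : F) ≠ 0) (n : ℕ)
    (P : Matrix.symplecticGroup (Fin n) F → Prop) (R : Nat.Partition (2 * n) → Prop)
    [DecidablePred R] (R' : Multiset ℕ → Prop)
    (hR : ∀ μ, R μ ↔ R' μ.parts ∧ ∀ j, Odd j → Even (μ.parts.count j))
    (hP : ∀ g, P g ↔ (∀ x ∈ ujord L (H27.spToGL n F g), x.1 = 1) ∧
      R' ((ujord L (H27.spToGL n F g)).map Prod.snd)) :
    Nat.card {c : ConjClasses (Matrix.symplecticGroup (Fin n) F) //
      ∃ g, ConjClasses.mk g = c ∧ P g} =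
      ∑ μ ∈ Finset.univ.filter R, 2 ^ (μ.parts.toFinset.filter Even).card := by
  rw [card_sp_classes L h2 n P (fun s => (∀ x ∈ s, x.1 = 1) ∧ R' (s.map Prod.snd)) hP]
  refine card_unip_labels (neg_one_ne_one_units' fun h => h2 ?_) _ _ R R'
    (by simpa only [Nat.not_even_iff_odd] using hR)
  exact (algebraMap F L).injective (by rw [map_ofNat, h, map_zero])

end Cfsg.Agent.H76
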